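import Mathlib

set_option autoImplicit false

/-
helper24: step (4) of Bender–Glauberman Theorem 3.6 (S1444; interface fixed by helper50):
if `K = V ⋊ L` with `V` an elementary abelian normal `p`-subgroup, `y` of prime order `r ≠ p`
with `C_K(y)` a Z-group and `C_V(y) ≠ 1`, then every `t ∈ C_K(y)` with `t ^ p ∈ V` lies in `V`.

Proof: the norm `w ↦ ∏_{i<r} y^i w y^{-i}` on `V` has a `t`-invariant kernel `U`, complementary
to `C_V(y)` in `V`; correcting `t` by an element of `C_V(y)` gives `s ∈ V t ∩ C(y)` with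
`s ^ p ∈ U ∩ C_V(y) = 1`; the cyclic `p`-subgroup `(V ⟨s⟩) ∩ C_K(y)` has a unique subgroup of
order `p`, which lies in `V`.
-/

namespace Cfsg.Agent.Lib.Helper24.BG36c

universe u

variable {G : Type u} [Group G]

/-- `prodConj y w k = ∏_{i<k} y^i w y^{-i}`. -/
def prodConj (y w : G) : ℕ → G
  | 0 => 1
  | k + 1 => prodConj y w k * (y ^ k * w * (y ^ k)⁻¹)

theorem prodConj_zero (y w : G) : prodConj y w 0 = 1 := rfl

theorem prodConj_succ (y w : G) (k : ℕ) :
    prodConj y w (k + 1) = prodConj y w k * (y ^ k * w * (y ^ k)⁻¹) := rfl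

theorem prodConj_mem (V : Subgroup G) [hV : V.Normal] (y w : G) (hw : w ∈ V) (k : ℕ) :
    prodConj y w k ∈ V := by
  induction k with
  | zero => exact V.one_mem
  | succ k ih => rw [prodConj_succ]; exact V.mul_mem ih (hV.conj_mem w hw _)

theorem prodConj_mul (V : Subgroup G) [hV : V.Normal] (hVc : ∀ a ∈ V, ∀ b ∈ V, a * b = b * a)
    (y w w' : G) (hw : w ∈ V) (hw' : w' ∈ V) (k : ℕ) :
    prodConj y (w * w') k = prodConj y w k * prodConj y w' k := by
  induction k with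
  | zero => simp [prodConj_zero]
  | succ k ih =>
    rw [prodConj_succ, prodConj_succ, prodConj_succ, ih]
    have hB := prodConj_mem V y w' hw' k
    have hC : y ^ k * w * (y ^ k)⁻¹ ∈ V := hV.conj_mem w hw _
    have hBC := hVc _ hB _ hC
    have h1 : y ^ k * (w * w') * (y ^ k)⁻¹
        = (y ^ k * w * (y ^ k)⁻¹) * (y ^ k * w' * (y ^ k)⁻¹) := by group
    rw [h1]
    calc prodConj y w k * prodConj y w' k
          * (y ^ k * w * (y ^ k)⁻¹ * (y ^ k * w' * (y ^ k)⁻¹))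
        = prodConj y w k * (prodConj y w' k * (y ^ k * w * (y ^ k)⁻¹))
          * (y ^ k * w' * (y ^ k)⁻¹) := by simp only [mul_assoc]
      _ = prodConj y w k * ((y ^ k * w * (y ^ k)⁻¹) * prodConj y w' k)
          * (y ^ k * w' * (y ^ k)⁻¹) := by rw [hBC]
      _ = _ := by simp only [mul_assoc]

theorem prodConj_one (y : G) (k : ℕ) : prodConj y 1 k = 1 := by
  induction k with
  | zero => rfl
  | succ k ih => rw [prodConj_succ, ih]; simp

theorem prodConj_inv (V : Subgroup G) [hV : V.Normal] (hVc : ∀ a ∈ V, ∀ b ∈ V, a * b = b * a)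
    (y w : G) (hw : w ∈ V) (k : ℕ) : prodConj y w⁻¹ k = (prodConj y w k)⁻¹ := by
  have h := prodConj_mul V hVc y w⁻¹ w (V.inv_mem hw) hw k
  rw [inv_mul_cancel, prodConj_one] at h
  exact eq_inv_of_mul_eq_one_left h.symm

theorem prodConj_shift (y w : G) (k : ℕ) :
    w * (y * prodConj y w k * y⁻¹) = prodConj y w (k + 1) := by
  induction k with
  | zero => simp [prodConj_succ, prodConj_zero]
  | succ k ih =>
    have h1 : prodConj y w (k + 1 + 1)
        = w * (y * prodConj y w k * y⁻¹) * (y ^ (k + 1) * w * (y ^ (k + 1))⁻¹) := by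
      rw [prodConj_succ y w (k + 1), ih]
    rw [h1, prodConj_succ, pow_succ']
    group

theorem prodConj_conj_self (V : Subgroup G) [hV : V.Normal]
    (hVc : ∀ a ∈ V, ∀ b ∈ V, a * b = b * a)
    (y w : G) (hw : w ∈ V) (r : ℕ) (hyr : y ^ r = 1) :
    y * prodConj y w r * y⁻¹ = prodConj y w r := by
  have h1 := prodConj_shift y w r
  rw [prodConj_succ, hyr, one_mul, inv_one, mul_one, hVc _ (prodConj_mem V y w hw r) _ hw] at h1
  exact mul_left_cancel h1

theorem prodConj_of_comm (y w : G) (h : y * w = w * y) (k : ℕ) : prodConj y w k = w ^ k := by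
  induction k with
  | zero => simp [prodConj_zero]
  | succ k ih =>
    have hc : y ^ k * w = w * y ^ k := (Commute.pow_left (show Commute y w from h) k).eq
    rw [prodConj_succ, ih, hc, mul_inv_cancel_right, pow_succ]

theorem prodConj_conj (y w g : G) (hg : g * y = y * g) (k : ℕ) :
    g * prodConj y w k * g⁻¹ = prodConj y (g * w * g⁻¹) k := by
  induction k with
  | zero => simp [prodConj_zero]
  | succ k ih =>
    have hc : g * y ^ k = y ^ k * g := (Commute.pow_right (show Commute g y from hg) k).eq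
    have h1 : g * (y ^ k * w * (y ^ k)⁻¹) * g⁻¹ = y ^ k * (g * w * g⁻¹) * (y ^ k)⁻¹ := by
      have : g * (y ^ k * w * (y ^ k)⁻¹) * g⁻¹ = (g * y ^ k) * w * (g * y ^ k)⁻¹ := by group
      rw [this, hc]; group
    rw [prodConj_succ, prodConj_succ, ← ih, ← h1]
    group

/-- Correcting `t = v n ∈ C(y)` (`v ∈ V`, `n ^ p = 1`) by an element of `C_V(y)` to an element
of order dividing `p`. -/
theorem exists_fixed_pow_eq_one (p r : ℕ) (hp : p.Prime) (hr : r.Prime) (hpr : p ≠ r)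
    (V : Subgroup G) [hV : V.Normal]
    (hVc : ∀ a ∈ V, ∀ b ∈ V, a * b = b * a) (hVp : ∀ a ∈ V, a ^ p = 1)
    (y : G) (hyr : y ^ r = 1) (t v n : G) (hty : t * y = y * t) (hv : v ∈ V) (htvn : t = v * n)
    (hn : n ^ p = 1) :
    ∃ c ∈ V, c * y = y * c ∧ (c⁻¹ * t) ^ p = 1 := by
  have hcop : Nat.Coprime r p := (Nat.coprime_primes hr hp).mpr (Ne.symm hpr)
  obtain ⟨a, -, ha⟩ := Nat.exists_mul_mod_eq_one_of_coprime hcop hp.one_lt
  have hzV : prodConj y v r ∈ V := prodConj_mem V y v hv r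
  have hzy : y * prodConj y v r * y⁻¹ = prodConj y v r := prodConj_conj_self V hVc y v hv r hyr
  have hzy' : y * prodConj y v r = prodConj y v r * y := by
    calc y * prodConj y v r = (y * prodConj y v r * y⁻¹) * y := by group
      _ = prodConj y v r * y := by rw [hzy]
  have hzra : prodConj y v r ^ (r * a) = prodConj y v r := by
    rw [← Nat.mod_add_div (r * a) p, ha, pow_add, pow_one, pow_mul, hVp _ hzV, one_pow, mul_one]
  have hcV : prodConj y v r ^ a ∈ V := V.pow_mem hzV a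
  have hcy : y * prodConj y v r ^ a = prodConj y v r ^ a * y :=
    (Commute.pow_right (show Commute y (prodConj y v r) from hzy') a).eq
  have hcr : (prodConj y v r ^ a) ^ r = prodConj y v r := by
    rw [← pow_mul, mul_comm, hzra]
  have huV : (prodConj y v r ^ a)⁻¹ * v ∈ V := V.mul_mem (V.inv_mem hcV) hv
  have hu1 : prodConj y ((prodConj y v r ^ a)⁻¹ * v) r = 1 := by
    rw [prodConj_mul V hVc y _ v (V.inv_mem hcV) hv r, prodConj_inv V hVc y _ hcV r,
      prodConj_of_comm y _ hcy r, hcr]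
    exact inv_mul_cancel _
  -- the kernel `U` of the norm
  let U : Subgroup G :=
    { carrier := {w | w ∈ V ∧ prodConj y w r = 1}
      one_mem' := ⟨V.one_mem, prodConj_one y r⟩
      mul_mem' := by
        rintro a b ⟨ha, ha'⟩ ⟨hb, hb'⟩
        exact ⟨V.mul_mem ha hb, by rw [prodConj_mul V hVc y a b ha hb r, ha', hb', one_mul]⟩
      inv_mem' := by
        rintro a ⟨ha, ha'⟩
        exact ⟨V.inv_mem ha, by rw [prodConj_inv V hVc y a ha r, ha', inv_one]⟩ }
  have hnU : ∀ w ∈ U, n * w * n⁻¹ ∈ U := by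
    rintro w ⟨hwV, hw1⟩
    have hn' : n = v⁻¹ * t := by rw [htvn]; group
    have h1 : n * w * n⁻¹ = v⁻¹ * (t * w * t⁻¹) * v := by rw [hn']; group
    have h2 : t * w * t⁻¹ ∈ V := hV.conj_mem w hwV t
    have h3 : v⁻¹ * (t * w * t⁻¹) * v = t * w * t⁻¹ := by
      rw [hVc _ (V.inv_mem hv) _ h2]; group
    rw [h1, h3]
    refine ⟨h2, ?_⟩
    rw [← prodConj_conj y w t hty r, hw1]; group
  have hnkU : ∀ (k : ℕ), ∀ w ∈ U, n ^ k * w * (n ^ k)⁻¹ ∈ U := by
    intro k
    induction k with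
    | zero => intro w hw; simpa using hw
    | succ k ih =>
      intro w hw
      have h0 := hnU _ (ih w hw)
      have h1 : n ^ (k + 1) * w * (n ^ (k + 1))⁻¹ = n * (n ^ k * w * (n ^ k)⁻¹) * n⁻¹ := by
        rw [pow_succ']; group
      rw [h1]; exact h0
  have hunk : ∀ k : ℕ, ((prodConj y v r ^ a)⁻¹ * v * n) ^ k * (n ^ k)⁻¹ ∈ U := by
    intro k
    induction k with
    | zero => simpa using U.one_mem
    | succ k ih =>
      have h1 : ((prodConj y v r ^ a)⁻¹ * v * n) ^ (k + 1) * (n ^ (k + 1))⁻¹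
          = (((prodConj y v r ^ a)⁻¹ * v * n) ^ k * (n ^ k)⁻¹)
            * (n ^ k * ((prodConj y v r ^ a)⁻¹ * v) * (n ^ k)⁻¹) := by
        rw [pow_succ, pow_succ]; group
      rw [h1]
      exact U.mul_mem ih (hnkU k _ ⟨huV, hu1⟩)
  have hs : (prodConj y v r ^ a)⁻¹ * t = (prodConj y v r ^ a)⁻¹ * v * n := by
    rw [htvn, mul_assoc]
  have hsp : ((prodConj y v r ^ a)⁻¹ * t) ^ p ∈ U := by
    have h0 := hunk p
    rw [hn, inv_one, mul_one, ← hs] at h0
    exact h0
  obtain ⟨hspV, hsp1⟩ := hsp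
  have hsy : y * ((prodConj y v r ^ a)⁻¹ * t) ^ p = ((prodConj y v r ^ a)⁻¹ * t) ^ p * y := by
    have h1 : Commute y ((prodConj y v r ^ a)⁻¹ * t) :=
      Commute.mul_right (Commute.inv_right (show Commute y (prodConj y v r ^ a) from hcy))
        (show Commute y t from hty.symm)
    exact (h1.pow_right p).eq
  rw [prodConj_of_comm y _ hsy r] at hsp1
  have hspp := hVp _ hspV
  refine ⟨prodConj y v r ^ a, hcV, hcy.symm, ?_⟩
  have h1 := pow_gcd_eq_one.mpr ⟨hsp1, hspp⟩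
  rw [hcop.gcd_eq_one, pow_one] at h1
  exact h1

/-- In a finite cyclic group the elements of order dividing `p` are the powers of any element
of order `p`. -/
theorem mem_zpowers_of_cyclic {A : Type*} [Group A] [Finite A] [IsCyclic A] (p : ℕ)
    (hp : p.Prime) (a b : A) (ha : a ^ p = 1) (ha1 : a ≠ 1) (hb : b ^ p = 1) :
    b ∈ Subgroup.zpowers a := by
  classical
  haveI := Fintype.ofFinite A
  have hle := IsCyclic.card_pow_eq_one_le (α := A) hp.pos
  have hord : orderOf a = p := by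
    rcases (Nat.dvd_prime hp).mp (orderOf_dvd_of_pow_eq_one ha) with h | h
    · exact absurd (orderOf_eq_one_iff.mp h) ha1
    · exact h
  have hsub : (Finset.univ.filter (fun x : A => x ∈ Subgroup.zpowers a))
      ⊆ Finset.univ.filter (fun x : A => x ^ p = 1) := by
    intro x hx
    rw [Finset.mem_filter] at hx ⊢
    refine ⟨Finset.mem_univ _, ?_⟩
    obtain ⟨j, rfl⟩ := Subgroup.mem_zpowers_iff.mp hx.2
    rw [← zpow_natCast, ← zpow_mul, mul_comm, zpow_mul, zpow_natCast, ha, one_zpow]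
  have hcard : (Finset.univ.filter (fun x : A => x ∈ Subgroup.zpowers a)).card = p := by
    rw [← hord, ← Nat.card_zpowers, Nat.card_eq_fintype_card]
    symm
    exact Fintype.card_of_subtype _ (fun x => by simp)
  have heq := Finset.eq_of_subset_of_card_le hsub (by rw [hcard]; exact hle)
  have hb' : b ∈ Finset.univ.filter (fun x : A => x ^ p = 1) :=
    Finset.mem_filter.mpr ⟨Finset.mem_univ _, hb⟩
  rw [← heq] at hb'
  exact (Finset.mem_filter.mp hb').2

/-- **Step (4) of BG Theorem 3.6.** -/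
theorem no_p_cent [Finite G] (p r : ℕ) [hp : Fact p.Prime] (hr : r.Prime) (hpr : p ≠ r)
    (V K L : Subgroup G) [hV : V.Normal] (hVK : V ≤ K) (hLK : L ≤ K)
    (hVc : ∀ a ∈ V, ∀ b ∈ V, a * b = b * a) (hVp : ∀ a ∈ V, a ^ p = 1)
    (hVL : V ⊓ L = ⊥) (hsplit : ∀ k ∈ K, ∃ v ∈ V, ∃ n ∈ L, k = v * n)
    (y : G) (hyr : orderOf y = r)
    (hZ : IsZGroup ↥(K ⊓ Subgroup.centralizer ({y} : Set G)))
    (hfix : ∃ v0 ∈ V, v0 ≠ 1 ∧ y * v0 = v0 * y) :
    ∀ t ∈ K, t * y = y * t → t ^ p ∈ V → t ∈ V := by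
  classical
  intro t htK hty htp
  by_contra htV
  obtain ⟨v, hv, n, hn, htvn⟩ := hsplit t htK
  have hmk : (QuotientGroup.mk n : G ⧸ V) = QuotientGroup.mk t := by
    rw [QuotientGroup.eq]
    have h0 : n⁻¹ * t = n⁻¹ * v * n⁻¹⁻¹ := by rw [htvn]; group
    rw [h0]; exact hV.conj_mem v hv n⁻¹
  have hnpV : n ^ p ∈ V := by
    rw [← QuotientGroup.eq_one_iff, QuotientGroup.mk_pow, hmk, ← QuotientGroup.mk_pow]
    exact (QuotientGroup.eq_one_iff _).mpr htp
  have hnp : n ^ p = 1 := by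
    have h0 : n ^ p ∈ V ⊓ L := Subgroup.mem_inf.mpr ⟨hnpV, L.pow_mem hn p⟩
    rw [hVL] at h0
    exact Subgroup.mem_bot.mp h0
  have hyr' : y ^ r = 1 := by rw [← hyr]; exact pow_orderOf_eq_one y
  obtain ⟨c, hcV, hcy, hs⟩ :=
    exists_fixed_pow_eq_one p r hp.out hr hpr V hVc hVp y hyr' t v n hty hv htvn hnp
  have hsK : c⁻¹ * t ∈ K := K.mul_mem (K.inv_mem (hVK hcV)) htK
  have hsV : c⁻¹ * t ∉ V := by
    intro h
    apply htV
    have h0 : t = c * (c⁻¹ * t) := by group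
    rw [h0]; exact V.mul_mem hcV h
  have hsy : Commute (c⁻¹ * t) y :=
    Commute.mul_left (Commute.inv_left (show Commute c y from hcy)) (show Commute t y from hty)
  obtain ⟨v0, hv0V, hv0ne, hv0y⟩ := hfix
  have hcent : ∀ g : G, g * y = y * g → g ∈ Subgroup.centralizer ({y} : Set G) := by
    intro g hg
    rw [Subgroup.mem_centralizer_iff]
    intro h hh
    rw [Set.mem_singleton_iff] at hh
    rw [hh]; exact hg.symm
  have hsC : c⁻¹ * t ∈ K ⊓ Subgroup.centralizer ({y} : Set G) :=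
    Subgroup.mem_inf.mpr ⟨hsK, hcent _ hsy.eq⟩
  have hv0C : v0 ∈ K ⊓ Subgroup.centralizer ({y} : Set G) :=
    Subgroup.mem_inf.mpr ⟨hVK hv0V, hcent v0 hv0y.symm⟩
  have hVpg : IsPGroup p ↥V := fun g =>
    ⟨1, Subtype.ext (by rw [pow_one, Subgroup.coe_pow, Subgroup.coe_one]; exact hVp g g.2)⟩
  have hspg : IsPGroup p ↥(Subgroup.zpowers (c⁻¹ * t)) := by
    rintro ⟨g, hg⟩
    obtain ⟨j, rfl⟩ := Subgroup.mem_zpowers_iff.mp hg
    refine ⟨1, Subtype.ext ?_⟩
    rw [pow_one, Subgroup.coe_pow, Subgroup.coe_one]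
    show ((c⁻¹ * t) ^ j) ^ p = 1
    rw [← zpow_natCast, ← zpow_mul, mul_comm, zpow_mul, zpow_natCast, hs, one_zpow]
  have hpg : IsPGroup p ↥(V ⊔ Subgroup.zpowers (c⁻¹ * t)) := hVpg.to_sup_of_normal_left hspg
  have hPpg : IsPGroup p ↥((V ⊔ Subgroup.zpowers (c⁻¹ * t)).subgroupOf
      (K ⊓ Subgroup.centralizer ({y} : Set G))) := hpg.comap_subtype
  haveI hcyc : IsCyclic ↥((V ⊔ Subgroup.zpowers (c⁻¹ * t)).subgroupOf
      (K ⊓ Subgroup.centralizer ({y} : Set G))) := hPpg.isCyclic_of_isZGroup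
  have hsP : (⟨c⁻¹ * t, hsC⟩ : ↥(K ⊓ Subgroup.centralizer ({y} : Set G)))
      ∈ (V ⊔ Subgroup.zpowers (c⁻¹ * t)).subgroupOf (K ⊓ Subgroup.centralizer ({y} : Set G)) :=
    Subgroup.mem_subgroupOf.mpr (Subgroup.mem_sup_right (Subgroup.mem_zpowers _))
  have hv0P : (⟨v0, hv0C⟩ : ↥(K ⊓ Subgroup.centralizer ({y} : Set G)))
      ∈ (V ⊔ Subgroup.zpowers (c⁻¹ * t)).subgroupOf (K ⊓ Subgroup.centralizer ({y} : Set G)) :=
    Subgroup.mem_subgroupOf.mpr (Subgroup.mem_sup_left hv0V)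
  have key := mem_zpowers_of_cyclic p hp.out
    (⟨⟨v0, hv0C⟩, hv0P⟩ : ↥((V ⊔ Subgroup.zpowers (c⁻¹ * t)).subgroupOf
      (K ⊓ Subgroup.centralizer ({y} : Set G))))
    ⟨⟨c⁻¹ * t, hsC⟩, hsP⟩
    (Subtype.ext (Subtype.ext (by
      rw [Subgroup.coe_pow, Subgroup.coe_pow, Subgroup.coe_one, Subgroup.coe_one]
      exact hVp v0 hv0V)))
    (fun h => hv0ne (congrArg Subtype.val (congrArg Subtype.val h)))
    (Subtype.ext (Subtype.ext (by
      rw [Subgroup.coe_pow, Subgroup.coe_pow, Subgroup.coe_one, Subgroup.coe_one]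
      exact hs)))
  obtain ⟨j, hj⟩ := Subgroup.mem_zpowers_iff.mp key
  have hj' : v0 ^ j = c⁻¹ * t := by
    have h0 := congrArg Subtype.val (congrArg Subtype.val hj)
    simpa using h0
  exact hsV (hj' ▸ V.zpow_mem hv0V j)

end Cfsg.Agent.Lib.Helper24.BG36c
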