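import Mathlib
import Cfsg.Agent.Lib.Helper24.PGroupBasic

set_option autoImplicit false

/-!
Generation modulo a normal subgroup `N` with `commutator G ≤ N` and `x ^ p ∈ N` for all `x`
(for instance the Frattini subgroup of a finite `p`-group): sizes of `N ⊔ closure T`.
-/

namespace Cfsg.Agent.Lib.Helper24.BurnsideBasis

open scoped commutatorElement

variable {G : Type*} [Group G]

/-- A subgroup containing the derived subgroup is normal. -/
theorem normal_of_commutator_le {M : Subgroup G} (h : commutator G ≤ M) : M.Normal := by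
  refine ⟨fun m hm g => ?_⟩
  have h1 : ⁅g, m⁆ ∈ M := h (by
    rw [commutator_def]
    exact Subgroup.commutator_mem_commutator (Subgroup.mem_top g) (Subgroup.mem_top m))
  have h2 : g * m * g⁻¹ = ⁅g, m⁆ * m := by
    rw [commutatorElement_def]; group
  rw [h2]
  exact M.mul_mem h1 hm

/-- The order of `N ⊔ zpowers k` when `k ∉ N` and `k ^ p ∈ N`. -/
theorem card_sup_zpowers_of_pow_mem {N : Subgroup G} [N.Normal] {k : G} {p : ℕ} [Fact p.Prime]
    (hk : k ∉ N) (hkp : k ^ p ∈ N) : Nat.card ↥(N ⊔ Subgroup.zpowers k) = Nat.card N * p := by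
  have hpr : p.Prime := Fact.out
  have hk1 : (QuotientGroup.mk' N k) ≠ 1 := by
    intro h
    exact hk ((QuotientGroup.eq_one_iff k).mp h)
  have hkp' : (QuotientGroup.mk' N k) ^ p = 1 := by
    rw [← map_pow]
    exact (QuotientGroup.eq_one_iff _).mpr hkp
  have hord : orderOf (QuotientGroup.mk' N k) = p := orderOf_eq_prime hkp' hk1
  have h1 : N.relIndex (N ⊔ Subgroup.zpowers k) = p := by
    have h := Subgroup.relIndex_comap (⊥ : Subgroup (G ⧸ N)) (QuotientGroup.mk' N)
      (N ⊔ Subgroup.zpowers k)
    rw [MonoidHom.comap_bot, QuotientGroup.ker_mk', Subgroup.relIndex_bot_left] at h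
    rw [h, Subgroup.map_sup, MonoidHom.map_zpowers]
    have h3 : N.map (QuotientGroup.mk' N) = ⊥ := by
      rw [← le_bot_iff, Subgroup.map_le_iff_le_comap, MonoidHom.comap_bot, QuotientGroup.ker_mk']
    rw [h3, bot_sup_eq, Nat.card_zpowers, hord]
  have h2 := Subgroup.relIndex_mul_relIndex ⊥ N (N ⊔ Subgroup.zpowers k) bot_le le_sup_left
  rw [Subgroup.relIndex_bot_left, Subgroup.relIndex_bot_left, h1] at h2
  exact h2.symm

theorem closure_insert_eq [DecidableEq G] (a : G) (s : Finset G) (N : Subgroup G) :
    N ⊔ Subgroup.closure ((insert a s : Finset G) : Set G) =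
      (N ⊔ Subgroup.closure (s : Set G)) ⊔ Subgroup.zpowers a := by
  rw [Finset.coe_insert, Set.insert_eq, Subgroup.closure_union, ← Subgroup.zpowers_eq_closure,
    sup_comm (Subgroup.zpowers a), sup_assoc]

variable [Finite G] {p : ℕ} [Fact p.Prime]

/-- Upper bound: `|N ⊔ ⟨T⟩| ≤ |N| * p ^ |T|`. -/
theorem card_sup_closure_le [DecidableEq G] (N : Subgroup G) (hcomm : commutator G ≤ N)
    (hpow : ∀ x : G, x ^ p ∈ N) (T : Finset G) :
    Nat.card ↥(N ⊔ Subgroup.closure (T : Set G)) ≤ Nat.card N * p ^ T.card := by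
  have hpr : p.Prime := Fact.out
  induction T using Finset.induction_on with
  | empty => simp
  | insert a s ha ih =>
    rw [closure_insert_eq, Finset.card_insert_of_notMem ha, pow_succ, ← mul_assoc]
    have hn : (N ⊔ Subgroup.closure (s : Set G)).Normal :=
      normal_of_commutator_le (hcomm.trans le_sup_left)
    by_cases hmem : a ∈ N ⊔ Subgroup.closure (s : Set G)
    · have : (N ⊔ Subgroup.closure (s : Set G)) ⊔ Subgroup.zpowers a =
          N ⊔ Subgroup.closure (s : Set G) :=
        sup_eq_left.mpr (Subgroup.zpowers_le.mpr hmem)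
      rw [this]
      exact ih.trans (Nat.le_mul_of_pos_right _ hpr.pos)
    · rw [card_sup_zpowers_of_pow_mem hmem ((le_sup_left : N ≤ _) (hpow a))]
      exact Nat.mul_le_mul_right p ih

/-- Independent sets modulo `N`: `|N ⊔ ⟨T⟩| = |N| * p ^ |T|`. -/
theorem card_sup_closure_of_indep [DecidableEq G] (N : Subgroup G) (hcomm : commutator G ≤ N)
    (hpow : ∀ x : G, x ^ p ∈ N) (T : Finset G)
    (hT : ∀ t ∈ T, t ∉ N ⊔ Subgroup.closure ((T.erase t : Finset G) : Set G)) :
    Nat.card ↥(N ⊔ Subgroup.closure (T : Set G)) = Nat.card N * p ^ T.card := by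
  induction T using Finset.induction_on with
  | empty => simp
  | insert a s ha ih =>
    rw [closure_insert_eq, Finset.card_insert_of_notMem ha, pow_succ, ← mul_assoc]
    have hn : (N ⊔ Subgroup.closure (s : Set G)).Normal :=
      normal_of_commutator_le (hcomm.trans le_sup_left)
    have hmem : a ∉ N ⊔ Subgroup.closure (s : Set G) := by
      have := hT a (Finset.mem_insert_self a s)
      rwa [Finset.erase_insert ha] at this
    have hs : ∀ t ∈ s, t ∉ N ⊔ Subgroup.closure ((s.erase t : Finset G) : Set G) := by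
      intro t ht hmem'
      apply hT t (Finset.mem_insert_of_mem ht)
      refine (sup_le_sup_left (Subgroup.closure_mono ?_) N) hmem'
      intro x hx
      have hx' : x ∈ s.erase t := hx
      rw [Finset.mem_erase] at hx'
      show x ∈ (insert a s).erase t
      rw [Finset.mem_erase]
      exact ⟨hx'.1, Finset.mem_insert_of_mem hx'.2⟩
    rw [card_sup_zpowers_of_pow_mem hmem ((le_sup_left : N ≤ _) (hpow a)), ih hs]

/-- **Burnside basis theorem**, abstract form. Let `N ≤ frattini G` contain all commutators and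
`p`-th powers, of index `p ^ n`.  Then every generating finset contains a generating subset with
exactly `n` elements, and no generating finset has fewer than `n` elements. -/
theorem burnside_basis (N : Subgroup G) (hcomm : commutator G ≤ N)
    (hpow : ∀ x : G, x ^ p ∈ N) (hN : N ≤ frattini G) (n : ℕ) (hn : N.index = p ^ n) :
    (∀ S : Finset G, Subgroup.closure (S : Set G) = ⊤ →
      ∃ T : Finset G, T ⊆ S ∧ T.card = n ∧ Subgroup.closure (T : Set G) = ⊤) ∧
    (∀ T : Finset G, Subgroup.closure (T : Set G) = ⊤ → n ≤ T.card) := by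
  classical
  have hpr : p.Prime := Fact.out
  have hcard : Nat.card G = Nat.card N * p ^ n := by rw [← hn, Subgroup.card_mul_index]
  have hNpos : 0 < Nat.card N := Nat.card_pos
  have lower : ∀ T : Finset G, Subgroup.closure (T : Set G) = ⊤ → n ≤ T.card := by
    intro T hT
    have h1 := card_sup_closure_le N hcomm hpow T
    rw [hT, sup_top_eq, Subgroup.card_top, hcard] at h1
    have h2 : p ^ n ≤ p ^ T.card := Nat.le_of_mul_le_mul_left h1 hNpos
    exact (Nat.pow_le_pow_iff_right hpr.one_lt).mp h2
  refine ⟨fun S hS => ?_, lower⟩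
  have hne : (S.powerset.filter (fun T : Finset G => Subgroup.closure (T : Set G) = ⊤)).Nonempty :=
    ⟨S, by simp [hS]⟩
  obtain ⟨T, hTmem, hTmin⟩ := Finset.exists_min_image _ Finset.card hne
  rw [Finset.mem_filter, Finset.mem_powerset] at hTmem
  obtain ⟨hTS, hTgen⟩ := hTmem
  refine ⟨T, hTS, ?_, hTgen⟩
  have hindep : ∀ t ∈ T, t ∉ N ⊔ Subgroup.closure ((T.erase t : Finset G) : Set G) := by
    intro t ht hmem
    have h1 : Subgroup.closure (T : Set G) ≤ N ⊔ Subgroup.closure ((T.erase t : Finset G) : Set G) := by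
      rw [Subgroup.closure_le]
      intro x hx
      by_cases hxt : x = t
      · rw [hxt]; exact hmem
      · exact (le_sup_right : Subgroup.closure ((T.erase t : Finset G) : Set G) ≤ _)
          (Subgroup.subset_closure (Finset.mem_erase.mpr ⟨hxt, hx⟩))
    rw [hTgen, top_le_iff] at h1
    have h2 : Subgroup.closure ((T.erase t : Finset G) : Set G) ⊔ frattini G = ⊤ := by
      rw [eq_top_iff, ← h1, sup_comm]
      exact sup_le_sup_left hN _
    have h3 := frattini_nongenerating h2
    have h4 := hTmin (T.erase t) (by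
      rw [Finset.mem_filter, Finset.mem_powerset]
      exact ⟨(Finset.erase_subset t T).trans hTS, h3⟩)
    rw [Finset.card_erase_of_mem ht] at h4
    have : 0 < T.card := Finset.card_pos.mpr ⟨t, ht⟩
    omega
  have h1 := card_sup_closure_of_indep N hcomm hpow T hindep
  rw [hTgen, sup_top_eq, Subgroup.card_top, hcard] at h1
  have h2 : p ^ n = p ^ T.card := Nat.eq_of_mul_eq_mul_left hNpos h1
  exact (Nat.pow_right_injective hpr.two_le h2).symm

end Cfsg.Agent.Lib.Helper24.BurnsideBasis
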