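import Mathlib
import Cfsg.Agent.Lib.Helper24.BurnsideBasis
import Cfsg.Agent.Lib.Helper63.PFrattini

set_option autoImplicit false

/-!
Finite `p`-groups (`p` odd) with a cyclic subgroup of index `p`: the non-abelian ones are
`M_{p^n} = ⟨a, b | a^(p^(n-1)) = b^p = 1, b a b⁻¹ = a^(1 + p^(n-2))⟩`.
-/

namespace Cfsg.Agent.Lib.Helper24.CyclicMax

open Cfsg.Agent.Lib.Helper24.Coprime

/-- Number theory: for `p` odd, `r ^ p ≡ 1 (mod p ^ (n-1))` and `r ≢ 1` force
`r = 1 + p ^ (n-2) * k` with `p ∤ k`. -/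
theorem exists_eq_one_add (p : ℕ) [hpf : Fact p.Prime] (hp : p ≠ 2) (n : ℕ) (hn : 3 ≤ n) (r : ℕ)
    (h1 : r ^ p ≡ 1 [MOD p ^ (n - 1)]) (h2 : ¬ r ≡ 1 [MOD p ^ (n - 1)]) :
    ∃ k, r = 1 + p ^ (n - 2) * k ∧ ¬ p ∣ k := by
  have hpr : p.Prime := hpf.out
  have hr1 : r ≠ 1 := by
    intro h
    rw [h] at h2
    exact h2 (Nat.ModEq.refl 1)
  have hpn : p ∣ p ^ (n - 1) := dvd_pow_self p (by omega)
  have h1p : r ^ p ≡ 1 [MOD p] := h1.of_dvd hpn
  have hr0 : r ≠ 0 := by
    rintro rfl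
    rw [zero_pow hpr.ne_zero] at h1p
    have : p ∣ 1 := (Nat.modEq_zero_iff_dvd.mp h1p.symm)
    exact hpr.one_lt.ne' (Nat.dvd_one.mp this)
  have hlt : 1 < r := by omega
  have hz : (r : ZMod p) = 1 := by
    have h3 : ((r ^ p : ℕ) : ZMod p) = ((1 : ℕ) : ZMod p) := (ZMod.natCast_eq_natCast_iff _ _ _).mpr h1p
    rw [Nat.cast_pow, ZMod.pow_card, Nat.cast_one] at h3
    exact h3
  have hpd : p ∣ r - 1 := by
    have h3 : ((r : ℕ) : ZMod p) = ((1 : ℕ) : ZMod p) := by rw [hz, Nat.cast_one]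
    have h4 : r ≡ 1 [MOD p] := (ZMod.natCast_eq_natCast_iff _ _ _).mp h3
    exact (Nat.modEq_iff_dvd' hlt.le).mp h4.symm
  have hnr : ¬ p ∣ r := by
    intro h
    have : p ∣ r - (r - 1) := Nat.dvd_sub h hpd
    rw [show r - (r - 1) = 1 by omega] at this
    exact hpr.one_lt.ne' (Nat.dvd_one.mp this)
  have hodd : Odd p := hpr.odd_of_ne_two hp
  have hlte := padicValNat.pow_sub_pow hodd hlt hpd hnr hpr.ne_zero
  rw [one_pow, padicValNat_self] at hlte
  have hrp : 1 ≤ r ^ p := Nat.one_le_pow _ _ (by omega)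
  have hdvd : p ^ (n - 1) ∣ r ^ p - 1 := (Nat.modEq_iff_dvd' hrp).mp h1.symm
  have hne : r ^ p - 1 ≠ 0 := by
    have : 1 < r ^ p := Nat.one_lt_pow hpr.ne_zero hlt
    omega
  have hle : n - 1 ≤ padicValNat p (r ^ p - 1) := (padicValNat_dvd_iff_le hne).mp hdvd
  have hle2 : n - 2 ≤ padicValNat p (r - 1) := by omega
  have hd2 : p ^ (n - 2) ∣ r - 1 := (padicValNat_dvd_iff_le (by omega)).mpr hle2
  obtain ⟨k, hk⟩ := hd2
  refine ⟨k, by omega, ?_⟩
  rintro ⟨k', rfl⟩
  apply h2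
  have : p ^ (n - 1) ∣ r - 1 := by
    rw [hk, ← mul_assoc, ← pow_succ, show n - 2 + 1 = n - 1 by omega]
    exact dvd_mul_right _ _
  exact ((Nat.modEq_iff_dvd' hlt.le).mpr this).symm

variable {G : Type*} [Group G]

/-- If `g a g⁻¹ = a * w` with `w` central then `g ^ i * a * (g ^ i)⁻¹ = a * w ^ i`. -/
theorem pow_conj_of_central {g a w : G} (h : g * a * g⁻¹ = a * w) (hw : ∀ t : G, t * w = w * t)
    (i : ℕ) : g ^ i * a * (g ^ i)⁻¹ = a * w ^ i := by
  induction i with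
  | zero => simp
  | succ i ih =>
    have hwi : g * w ^ i = w ^ i * g := by
      have : Commute g w := hw g
      exact (this.pow_right i).eq
    calc g ^ (i + 1) * a * (g ^ (i + 1))⁻¹ = g * (g ^ i * a * (g ^ i)⁻¹) * g⁻¹ := by
          rw [pow_succ']; group
      _ = g * (a * w ^ i) * g⁻¹ := by rw [ih]
      _ = (g * a * g⁻¹) * (g * w ^ i * g⁻¹) := by group
      _ = a * w * w ^ i := by rw [h, hwi, mul_inv_cancel_right, mul_assoc]
      _ = a * w ^ (i + 1) := by rw [mul_assoc, ← pow_succ']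

/-- If `g a g⁻¹ = a * w` with `w` commuting with `a` then `g * a ^ m * g⁻¹ = a ^ m * w ^ m`. -/
theorem conj_pow_of_commute {g a w : G} (h : g * a * g⁻¹ = a * w) (hw : a * w = w * a)
    (m : ℕ) : g * a ^ m * g⁻¹ = a ^ m * w ^ m := by
  rw [← conj_pow, h]
  have : Commute a w := hw
  exact this.mul_pow m

/-- If `B A B⁻¹ = A * w` with `w` central, then `A B⁻¹ A⁻¹ B = w`. -/
theorem comm_of_conj {A B w : G} (h : B * A * B⁻¹ = A * w) (hw : ∀ u : G, u * w = w * u) :
    A * B⁻¹ * A⁻¹ * B = w := by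
  have h0 : A = B⁻¹ * A * B * w := by
    calc A = B⁻¹ * (B * A * B⁻¹) * B := by group
      _ = B⁻¹ * (A * w) * B := by rw [h]
      _ = B⁻¹ * A * (w * B) := by group
      _ = B⁻¹ * A * (B * w) := by rw [hw B]
      _ = B⁻¹ * A * B * w := by group
  have e1 : B⁻¹ * A * B = A * w⁻¹ := by
    calc B⁻¹ * A * B = B⁻¹ * A * B * w * w⁻¹ := by group
      _ = A * w⁻¹ := by rw [← h0]
  calc A * B⁻¹ * A⁻¹ * B = A * (B⁻¹ * A * B)⁻¹ := by group
    _ = A * (A * w⁻¹)⁻¹ := by rw [e1]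
    _ = A * w * A⁻¹ := by group
    _ = w * A * A⁻¹ := by rw [hw A]
    _ = w := by group

/-- **Non-abelian `p`-groups with a cyclic maximal subgroup, `p` odd.** -/
theorem exists_generators [Finite G] {p : ℕ} [Fact p.Prime] (hp : p ≠ 2) (n : ℕ) (hn : 3 ≤ n)
    (hG : Nat.card G = p ^ n) (a : G) (ha : orderOf a = p ^ (n - 1))
    (hna : ∃ x y : G, x * y ≠ y * x) :
    ∃ b : G, orderOf b = p ∧ b ∉ Subgroup.zpowers a ∧ b * a * b⁻¹ = a ^ (1 + p ^ (n - 2)) := by
  have hpr : p.Prime := Fact.out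
  have hGp : IsPGroup p G := IsPGroup.of_card hG
  have hcardC : Nat.card (Subgroup.zpowers a) = p ^ (n - 1) := by rw [Nat.card_zpowers, ha]
  have hidx : (Subgroup.zpowers a).index = p := by
    have h := Subgroup.card_mul_index (Subgroup.zpowers a)
    rw [hcardC, hG] at h
    have h2 : p ^ n = p ^ (n - 1) * p := by rw [← pow_succ]; congr 1; omega
    rw [h2] at h
    exact Nat.eq_of_mul_eq_mul_left (pow_pos hpr.pos _) h
  have hCn : (Subgroup.zpowers a).Normal := by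
    apply Subgroup.normal_of_index_eq_minFac_card
    rw [hidx, hG, Nat.pow_minFac (by omega), hpr.minFac_eq]
  have hCab : ∀ x ∈ Subgroup.zpowers a, ∀ y ∈ Subgroup.zpowers a, x * y = y * x := by
    intro x hx y hy
    obtain ⟨i, rfl⟩ := Subgroup.mem_zpowers_iff.mp hx
    obtain ⟨j, rfl⟩ := Subgroup.mem_zpowers_iff.mp hy
    rw [← zpow_add, ← zpow_add, add_comm]
  have hnat : ∀ x ∈ Subgroup.zpowers a, ∃ m : ℕ, a ^ m = x := by
    intro x hx
    have : x ∈ Submonoid.powers a := (mem_powers_iff_mem_zpowers).mpr hx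
    exact this
  -- the central element `z`
  have hz1 : a ^ p ^ (n - 2) ≠ 1 := by
    apply pow_ne_one_of_lt_orderOf (pow_pos hpr.pos _).ne'
    rw [ha]
    exact Nat.pow_lt_pow_right hpr.one_lt (by omega)
  have hzp : (a ^ p ^ (n - 2)) ^ p = 1 := by
    rw [← pow_mul, ← pow_succ, show n - 2 + 1 = n - 1 by omega, ← ha, pow_orderOf_eq_one]
  have hzo : orderOf (a ^ p ^ (n - 2)) = p := orderOf_eq_prime hzp hz1
  have hzn : (Subgroup.zpowers (a ^ p ^ (n - 2))).Normal := by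
    refine ⟨fun y hy t => ?_⟩
    obtain ⟨i, rfl⟩ := Subgroup.mem_zpowers_iff.mp hy
    obtain ⟨m, hm⟩ := hnat _ (hCn.conj_mem a (Subgroup.mem_zpowers a) t)
    have h1 : t * (a ^ p ^ (n - 2)) ^ i * t⁻¹ = ((a ^ p ^ (n - 2)) ^ m) ^ i := by
      rw [← pow_mul, mul_comm, pow_mul, hm, conj_pow, conj_zpow]
    rw [h1]
    exact Subgroup.zpow_mem _ (Subgroup.pow_mem _ (Subgroup.mem_zpowers _) m) i
  have hzc : ∀ t : G, t * a ^ p ^ (n - 2) = a ^ p ^ (n - 2) * t := by
    intro t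
    have hle := Cfsg.Agent.Lib.Helper63.PFrattini.normal_card_prime_le_center hGp
      (Subgroup.zpowers (a ^ p ^ (n - 2))) (by rw [Nat.card_zpowers, hzo])
    exact Subgroup.mem_center_iff.mp (hle (Subgroup.mem_zpowers _)) t
  -- an element outside
  have hCne : Subgroup.zpowers a ≠ ⊤ := by
    intro h
    rw [h, Subgroup.index_top] at hidx
    exact hpr.one_lt.ne hidx
  obtain ⟨g, hg⟩ : ∃ g : G, g ∉ Subgroup.zpowers a := by
    by_contra h
    exact hCne (eq_top_iff.mpr (fun x _ => by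
      by_contra hx
      exact h ⟨x, hx⟩))
  have hpowmem : ∀ x : G, x ^ p ∈ Subgroup.zpowers a := by
    intro x
    have := Subgroup.pow_index_mem (Subgroup.zpowers a) x
    rwa [hidx] at this
  obtain ⟨r, hr⟩ := hnat _ (hCn.conj_mem a (Subgroup.mem_zpowers a) g)
  -- conjugation by powers of g
  have hconj : ∀ j : ℕ, g ^ j * a * (g ^ j)⁻¹ = a ^ r ^ j := by
    intro j
    induction j with
    | zero => simp
    | succ j ih =>
      calc g ^ (j + 1) * a * (g ^ (j + 1))⁻¹ = g * (g ^ j * a * (g ^ j)⁻¹) * g⁻¹ := by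
            rw [pow_succ']; group
        _ = g * a ^ r ^ j * g⁻¹ := by rw [ih]
        _ = a ^ r ^ (j + 1) := by rw [← conj_pow, ← hr, ← pow_mul, ← pow_succ']
  have hrp : r ^ p ≡ 1 [MOD p ^ (n - 1)] := by
    have h1 := hconj p
    have h2 : g ^ p * a * (g ^ p)⁻¹ = a := by
      rw [hCab _ (hpowmem g) a (Subgroup.mem_zpowers a), mul_inv_cancel_right]
    rw [h2] at h1
    have h3 : a ^ r ^ p = a ^ 1 := by rw [pow_one]; exact h1.symm
    rw [← ha]
    exact pow_eq_pow_iff_modEq.mp h3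
  have hr1 : ¬ r ≡ 1 [MOD p ^ (n - 1)] := by
    intro h
    rw [← ha] at h
    have h1 : a ^ r = a ^ 1 := pow_eq_pow_iff_modEq.mpr h
    rw [pow_one, hr] at h1
    have hga : g * a = a * g := by
      calc g * a = g * a * g⁻¹ * g := by group
        _ = a * g := by rw [h1]
    -- then `G` is abelian
    have hsup : Subgroup.zpowers a ⊔ Subgroup.zpowers g = ⊤ := by
      apply Subgroup.eq_top_of_card_eq
      rw [Cfsg.Agent.Lib.Helper24.BurnsideBasis.card_sup_zpowers_of_pow_mem hg (hpowmem g),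
        hcardC, hG, ← pow_succ]
      congr 1; omega
    have hcen : ∀ x : G, (∀ y ∈ Subgroup.zpowers a, y * x = x * y) → g * x = x * g →
        x ∈ Subgroup.center G := by
      intro x hxa hxg
      have hle : Subgroup.zpowers a ⊔ Subgroup.zpowers g ≤ Subgroup.centralizer {x} := by
        refine sup_le ?_ ?_
        · intro y hy
          rw [Subgroup.mem_centralizer_iff]
          intro w hw
          rw [Set.mem_singleton_iff] at hw
          subst hw
          exact (hxa y hy).symm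
        · rw [Subgroup.zpowers_le, Subgroup.mem_centralizer_iff]
          intro w hw
          rw [Set.mem_singleton_iff] at hw
          subst hw
          exact hxg.symm
      rw [hsup] at hle
      rw [Subgroup.mem_center_iff]
      intro t
      exact (Subgroup.mem_centralizer_iff.mp (hle (Subgroup.mem_top t)) x rfl).symm
    have hacen : a ∈ Subgroup.center G :=
      hcen a (fun y hy => hCab y hy a (Subgroup.mem_zpowers a)) hga
    have hgcen : g ∈ Subgroup.center G := by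
      refine hcen g (fun y hy => ?_) rfl
      obtain ⟨i, rfl⟩ := Subgroup.mem_zpowers_iff.mp hy
      have : Commute a g := hga.symm
      exact (this.zpow_left i).eq
    have htop : Subgroup.center G = ⊤ := by
      rw [eq_top_iff, ← hsup]
      exact sup_le (Subgroup.zpowers_le.mpr hacen) (Subgroup.zpowers_le.mpr hgcen)
    obtain ⟨x, y, hxy⟩ := hna
    apply hxy
    have : x ∈ Subgroup.center G := htop ▸ Subgroup.mem_top x
    exact (Subgroup.mem_center_iff.mp this y).symm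
  obtain ⟨k, hk, hpk⟩ := exists_eq_one_add p hp n hn r hrp hr1
  -- `g a g⁻¹ = a * z ^ k`
  have hga : g * a * g⁻¹ = a * (a ^ p ^ (n - 2)) ^ k := by
    rw [← hr, hk, pow_add, pow_one, pow_mul]
  have hzkc : ∀ t : G, t * (a ^ p ^ (n - 2)) ^ k = (a ^ p ^ (n - 2)) ^ k * t := by
    intro t
    have : Commute t (a ^ p ^ (n - 2)) := hzc t
    exact (this.pow_right k).eq
  obtain ⟨j, hj⟩ := Nat.exists_mul_mod_eq_one_of_coprime
    ((Nat.Prime.coprime_iff_not_dvd hpr).mpr hpk).symm hpr.one_lt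
  have hpj : ¬ p ∣ j := by
    intro h
    have : k * j % p = 0 := Nat.mod_eq_zero_of_dvd (Dvd.dvd.mul_left h k)
    omega
  -- `b₁ = g ^ j`
  have hb1 : g ^ j * a * (g ^ j)⁻¹ = a * a ^ p ^ (n - 2) := by
    rw [pow_conj_of_central hga hzkc j, ← pow_mul]
    congr 1
    have h1 : k * j = p * (k * j / p) + 1 := by
      have := Nat.div_add_mod (k * j) p
      omega
    rw [h1, pow_add, pow_mul, hzp, one_pow, one_mul, pow_one]
  have hb1C : g ^ j ∉ Subgroup.zpowers a := by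
    intro h
    have hcop : IsCoprime ((j : ℕ) : ℤ) ((p : ℕ) : ℤ) :=
      Nat.isCoprime_iff_coprime.mpr ((Nat.Prime.coprime_iff_not_dvd hpr).mpr hpj).symm
    obtain ⟨u, v, huv⟩ := hcop
    have hge : g = (g ^ j) ^ u * (g ^ p) ^ v := by
      rw [← zpow_natCast, ← zpow_natCast, ← zpow_mul, ← zpow_mul, ← zpow_add,
        mul_comm _ u, mul_comm _ v, huv, zpow_one]
    apply hg
    rw [hge]
    exact Subgroup.mul_mem _ (Subgroup.zpow_mem _ h u) (Subgroup.zpow_mem _ (hpowmem g) v)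
  obtain ⟨t, ht⟩ := hnat _ (hpowmem (g ^ j))
  have hzaz : a * a ^ p ^ (n - 2) = a ^ p ^ (n - 2) * a := hzc a
  have hpt : p ∣ t := by
    have h1 := conj_pow_of_commute hb1 hzaz t
    have h2 : g ^ j * a ^ t * (g ^ j)⁻¹ = a ^ t := by
      rw [ht, ← pow_succ', pow_succ, mul_inv_cancel_right]
    rw [h2] at h1
    have h3 : (a ^ p ^ (n - 2)) ^ t = 1 := by
      have : a ^ t * 1 = a ^ t * (a ^ p ^ (n - 2)) ^ t := by rw [mul_one]; exact h1
      exact (mul_left_cancel this).symm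
    rw [← hzo]
    exact orderOf_dvd_of_pow_eq_one h3
  obtain ⟨s, hs⟩ := hpt
  -- `b = b₁ * (a ^ s)⁻¹`
  have hAw : g ^ j * a ^ s * (g ^ j)⁻¹ = a ^ s * (a ^ p ^ (n - 2)) ^ s :=
    conj_pow_of_commute hb1 hzaz s
  have hwc : ∀ u : G, u * (a ^ p ^ (n - 2)) ^ s = (a ^ p ^ (n - 2)) ^ s * u := by
    intro u
    have : Commute u (a ^ p ^ (n - 2)) := hzc u
    exact (this.pow_right s).eq
  have hcomm : ((a ^ s)⁻¹)⁻¹ * (g ^ j)⁻¹ * (a ^ s)⁻¹ * g ^ j = (a ^ p ^ (n - 2)) ^ s := by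
    rw [inv_inv]
    exact comm_of_conj hAw hwc
  have hyp : ((a ^ s)⁻¹) ^ p = ((g ^ j) ^ p)⁻¹ := by
    rw [inv_pow, ← pow_mul, mul_comm, ← hs, ht]
  refine ⟨g ^ j * (a ^ s)⁻¹, ?_, ?_, ?_⟩
  · have hbp : (g ^ j * (a ^ s)⁻¹) ^ p = 1 := by
      rw [mul_pow_prime_of_central p hp (x := g ^ j) (y := (a ^ s)⁻¹)
        (by rw [hcomm]; exact (hwc _).symm) (by rw [hcomm]; exact (hwc _).symm)
        (by rw [hyp]; exact (Commute.pow_self (g ^ j) p).inv_left.eq), hyp, mul_inv_cancel]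
    have hb1' : g ^ j * (a ^ s)⁻¹ ≠ 1 := by
      intro h
      apply hb1C
      have : g ^ j = a ^ s := by
        calc g ^ j = g ^ j * (a ^ s)⁻¹ * a ^ s := by group
          _ = a ^ s := by rw [h, one_mul]
      rw [this]
      exact Subgroup.pow_mem _ (Subgroup.mem_zpowers a) s
    exact orderOf_eq_prime hbp hb1'
  · intro h
    apply hb1C
    have : g ^ j = g ^ j * (a ^ s)⁻¹ * a ^ s := by group
    rw [this]
    exact Subgroup.mul_mem _ h (Subgroup.pow_mem _ (Subgroup.mem_zpowers a) s)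
  · have h1 : (a ^ s)⁻¹ * a * a ^ s = a := by
      rw [mul_assoc, ← pow_succ', pow_succ, ← mul_assoc, inv_mul_cancel, one_mul]
    calc g ^ j * (a ^ s)⁻¹ * a * (g ^ j * (a ^ s)⁻¹)⁻¹
        = g ^ j * ((a ^ s)⁻¹ * a * a ^ s) * (g ^ j)⁻¹ := by group
      _ = a ^ (1 + p ^ (n - 2)) := by rw [h1, hb1, pow_add, pow_one]

end Cfsg.Agent.Lib.Helper24.CyclicMax
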