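import Mathlib
import Cfsg.Agent.Lib.Helper41.EMStmt
import Cfsg.Agent.Lib.Helper82.EPUCARDE
import Cfsg.Agent.Lib.Helper4.GenCount
import Cfsg.Agent.Lib.Helper44.NegPairs

/-!
# S5990 / UCARDE (call by helper41): for a nondegenerate `U` with `m < dim U < c`, `r` does not
divide the number of elliptic `m`-spaces inside `U` (minus form, all `q`).
Port of `Cfsg.Agent.Lib.Helper82.EPUCARDE` (helper82) to the minus form; the abstract lemma
`Helper82.EPUCARDE.acardi_all` and `Helper4.GenCount.amem_iff` are reused.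
-/

set_option autoImplicit false

universe u

open scoped Matrix

namespace Cfsg.Agent.Lib.Helper24.EMUCARDE

open Module QuadraticMap
open Cfsg.Agent.Lib.Helper37.HypStmt (cc)
open Cfsg.Agent.Lib.Helper94.OPStmt (AMem)
open Cfsg.Agent.Lib.Helper45.OMiStmt (M Aniso FxM NDegM StabM)
open Cfsg.Agent.Lib.Helper41.TMTwoStmt (PlusM)
open Cfsg.Agent.Lib.Helper41.EMStmt
open Cfsg.Agent.Lib.Helper44.QSpace Cfsg.Agent.Lib.Helper44.QClass Cfsg.Agent.Lib.Helper44.OTyp1
open Cfsg.Agent.Lib.Helper44.QBasis Cfsg.Agent.Lib.Helper44.SpinCount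
open Cfsg.Agent.Lib.Helper44.NegPairs
open Cfsg.Agent.Lib.Helper4.GenCount (MemG rq amem_iff)

section ell

variable {F : Type u} [Field F] [Fintype F] {d : ℕ} {a₀ b₀ : F}

omit [Fintype F] in
theorem sep_of_meme {m : ℕ} {W : Submodule F (M d → F)} (hW : MemEM d F a₀ b₀ m W) :
    Sep (res (minusQ (d - 1) F a₀ b₀) W) := by
  intro x hx
  by_contra hx0
  have hx0' : (x : M d → F) ≠ 0 := fun h0 => hx0 (Subtype.ext h0)
  obtain ⟨-, z, hz, hz0⟩ := hW.2.1 (x : M d → F) x.2 hx0'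
  exact hz0 (hx ⟨z, hz⟩)

/-- the number of singular vectors of an elliptic subspace (all `q`) -/
theorem card_of_meme {k : ℕ} {W : Submodule F (M d → F)}
    (hW : MemEM d F a₀ b₀ (2 * (k + 1)) W) :
    Nat.card {v : W // res (minusQ (d - 1) F a₀ b₀) W v = 0} * Fintype.card F
      = Fintype.card F ^ (k + 1)
        + Fintype.card F ^ 2 * ((Fintype.card F ^ k - 1) * Fintype.card F ^ k) := by
  have hS : Sep (res (minusQ (d - 1) F a₀ b₀) W) := sep_of_meme hW
  rcases exists_hyp_even k W (res (minusQ (d - 1) F a₀ b₀) W) hW.1 hS with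
    ⟨e, f, hH⟩ | ⟨e, f, x, y, ζ, hH, hE, horth⟩
  · exfalso
    apply hW.2.2
    have hli : LinearIndependent F e := by
      have h := linearIndependent_hyp hH (fun t : Fin 0 => t.elim0)
        linearIndependent_empty_type (fun _ t => t.elim0) (fun _ t => t.elim0)
      exact h.comp (Sum.inl ∘ Sum.inl) (Sum.inl_injective.comp Sum.inl_injective)
    refine ⟨(Submodule.span F (Set.range e)).map W.subtype, Submodule.map_subtype_le _ _,
      ?_, ?_⟩
    · rintro w ⟨u, hu, rfl⟩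
      obtain ⟨c, rfl⟩ := (Submodule.mem_span_range_iff_exists_fun F).mp hu
      have h := q_hyp_sum hH c (fun _ => 0) Finset.univ
      simp only [zero_smul, add_zero, mul_zero, Finset.sum_const_zero] at h
      exact h
    · rw [Submodule.finrank_map_subtype_eq, finrank_span_eq_card hli, Fintype.card_fin, hW.1]
  · exact card_M (res (minusQ (d - 1) F a₀ b₀) W) hH hE horth hW.1

/-- two elliptic `m`-spaces are isometric (all `q`) -/
theorem iso_of_meme {m : ℕ} (hm2 : 2 ≤ m) (hme : Even m) {W W₀ : Submodule F (M d → F)}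
    (hW : MemEM d F a₀ b₀ m W) (hW₀ : MemEM d F a₀ b₀ m W₀) :
    Cfsg.Geo.AreIsometricFor (Cfsg.quadFormMinus (d - 1) F a₀ b₀) W W₀ := by
  obtain ⟨k, rfl⟩ : ∃ k, m = 2 * (k + 1) := by
    obtain ⟨j, hj⟩ := hme
    exact ⟨j - 1, by omega⟩
  have c1 := card_of_meme hW
  have c2 := card_of_meme hW₀
  have hq0 : 0 < Fintype.card F := Fintype.card_pos
  have hc : Nat.card {v : W // res (minusQ (d - 1) F a₀ b₀) W v = 0}
      = Nat.card {v : W₀ // res (minusQ (d - 1) F a₀ b₀) W₀ v = 0} :=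
    Nat.eq_of_mul_eq_mul_right hq0 (c1.trans c2.symm)
  have hS1 : Sep (res (minusQ (d - 1) F a₀ b₀) W) := sep_of_meme hW
  have hS2 : Sep (res (minusQ (d - 1) F a₀ b₀) W₀) := sep_of_meme hW₀
  obtain ⟨j, hj⟩ := exists_iso (res (minusQ (d - 1) F a₀ b₀) W)
    (res (minusQ (d - 1) F a₀ b₀) W₀) hS1 hS2 hW.1 hW₀.1 hc
  have hjinj := Cfsg.Agent.Lib.Helper8.HypHYPSUB.isom_inj hS1 j hj
  have hdim : finrank F W = finrank F W₀ := by rw [hW.1, hW₀.1]
  exact ⟨LinearMap.linearEquivOfInjective j hjinj hdim, fun w => hj w⟩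

/-- elliptic `m`-spaces are the nondegenerate `m`-spaces isometric to a fixed elliptic one -/
theorem meme_iff_mem {m : ℕ} (hm2 : 2 ≤ m) (hme : Even m) {W₀ : Submodule F (M d → F)}
    (hW₀ : MemEM d F a₀ b₀ m W₀) (W : Submodule F (M d → F)) :
    MemEM d F a₀ b₀ m W ↔ MemG (⇑(minusQ (d - 1) F a₀ b₀)) m W₀ W := by
  constructor
  · intro hW
    exact ⟨hW.1, hW.2.1, iso_of_meme hm2 hme hW hW₀⟩
  · rintro ⟨h1, h2, e, he⟩
    refine ⟨h1, h2, ?_⟩
    rintro ⟨T, hTW, hTs, hTd⟩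
    apply hW₀.2.2
    refine ⟨((T.comap W.subtype).map (e : ↥W →ₗ[F] ↥W₀)).map W₀.subtype,
      Submodule.map_subtype_le _ _, ?_, ?_⟩
    · rintro w ⟨w₁, ⟨t, ht, rfl⟩, rfl⟩
      show Cfsg.quadFormMinus (d - 1) F a₀ b₀ ((e t : ↥W₀) : M d → F) = 0
      have h3 : Cfsg.quadFormMinus (d - 1) F a₀ b₀ ((e t : ↥W₀) : M d → F)
          = Cfsg.quadFormMinus (d - 1) F a₀ b₀ (t : M d → F) := he t
      rw [h3]
      exact hTs _ ht
    · rw [Submodule.finrank_map_subtype_eq, LinearEquiv.finrank_map_eq,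
        (Submodule.comapSubtypeEquivOfLe hTW).finrank_eq, hTd, h1, hW₀.1]

end ell

theorem main (hSub : SubTypeE.{u}) : UCardE.{u} := by
  intro F _ _ a₀ b₀ hab p _ _ d m hm2 hme r _ hr2 hrp U hU hmU hUc
  classical
  obtain ⟨W₀, hW₀U, hW₀E⟩ := (hSub F a₀ b₀ hab d m U hU hme hmU).2 hm2
  have hW₀m : Module.finrank F ↥W₀ = m := hW₀E.1
  have hSep : ∀ x : ↥U,
      (∀ y : ↥U, QuadraticMap.polar (rq (minusQ (d - 1) F a₀ b₀) U) x y = 0) → x = 0 := by
    intro x hx
    by_contra hx0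
    have hx0' : (x : M d → F) ≠ 0 := fun h0 => hx0 (Subtype.ext h0)
    obtain ⟨-, z, hz, hz0⟩ := hU (x : M d → F) x.2 hx0'
    exact hz0 (hx ⟨z, hz⟩)
  have hne : ∃ W' : Submodule F ↥U,
      AMem (rq (minusQ (d - 1) F a₀ b₀) U) (rq (minusQ (d - 1) F a₀ b₀) W₀) W' := by
    refine ⟨W₀.comap U.subtype, ?_⟩
    rw [amem_iff (minusQ (d - 1) F a₀ b₀) U m W₀ hW₀m, Submodule.map_comap_subtype,
      inf_eq_right.mpr hW₀U]
    exact (meme_iff_mem hm2 hme hW₀E W₀).mp hW₀E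
  have key := Cfsg.Agent.Lib.Helper82.EPUCARDE.acardi_all F p ↥U
    (rq (minusQ (d - 1) F a₀ b₀) U) hSep ↥W₀ (rq (minusQ (d - 1) F a₀ b₀) W₀) r hr2 hrp hUc hne
  have hcard : Nat.card {W : Submodule F (M d → F) // MemEM d F a₀ b₀ m W ∧ W ≤ U} =
      Nat.card {W' : Submodule F ↥U //
        AMem (rq (minusQ (d - 1) F a₀ b₀) U) (rq (minusQ (d - 1) F a₀ b₀) W₀) W'} := by
    refine Nat.card_congr
      { toFun := fun W => ⟨W.1.comap U.subtype, ?_⟩
        invFun := fun W' => ⟨W'.1.map U.subtype,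
          ⟨(meme_iff_mem hm2 hme hW₀E _).mpr
            ((amem_iff (minusQ (d - 1) F a₀ b₀) U m W₀ hW₀m W'.1).mp W'.2),
          Submodule.map_subtype_le U W'.1⟩⟩
        left_inv := ?_
        right_inv := ?_ }
    · rw [amem_iff (minusQ (d - 1) F a₀ b₀) U m W₀ hW₀m, Submodule.map_comap_subtype,
        inf_eq_right.mpr W.2.2]
      exact (meme_iff_mem hm2 hme hW₀E _).mp W.2.1
    · intro W
      apply Subtype.ext
      show (W.1.comap U.subtype).map U.subtype = W.1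
      rw [Submodule.map_comap_subtype, inf_eq_right.mpr W.2.2]
    · intro W'
      apply Subtype.ext
      show (W'.1.map U.subtype).comap U.subtype = W'.1
      exact Submodule.comap_map_eq_of_injective (Submodule.injective_subtype U) W'.1
  rw [hcard]
  exact key

end Cfsg.Agent.Lib.Helper24.EMUCARDE
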