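import Mathlib
import Cfsg.Prelude.Def_GeometricClasses

/-!
# S5877 (eigenspaces of elements normalising an absolutely irreducible extraspecial group):
statements of the pieces and the assembly.

Notation: `R ≤ GL_n(F)` extraspecial (`Setup`), `Sc n F` the scalar matrices, `RZ = R ⊔ Sc n F`,
`cm y g = y * g * y⁻¹ * g⁻¹`, `eDim g c` the dimension of the `c`-eigenspace of `g`.

Plan of the proof (all elementary, `W = ker (g - c)`, `d = eDim g c`):
* `EigBound`: a non-scalar `a ∈ RZ` has all eigenspaces of dimension `≤ n / r`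
  (conjugation by a non-commuting `y ∈ R` multiplies the eigenvalue by a primitive `r`-th root of
  unity).
* `Inner`: if `cm y g` is scalar for all `y ∈ R` then `g ∈ RZ` (count characters of `R / Z(R)`).
* `Half`: `W ⊓ y W ≤ Fix (cm y g)`, so `2 d - n ≤ n / r` when `cm y g` is not scalar.
* `Key`: `W ⊓ y W` is fixed by every `g ^ i * cm y g * g ^ (-i)`; two non-commuting elements of
  `RZ` have no common fixed vector, so then `W ⊓ y W = 0` and `2 d ≤ n`.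
* `SympCoprime` (abstract group theory): in the coprime case the failure of `Key` for all `y`
  forces `cm x g` to be central for all `x`, so `g ∈ RZ` (`CaseB`).
* `ClaimC`, `Shift`, `Two`, `Quad`: the case `orderOf g = r`.
-/

set_option autoImplicit false

namespace Cfsg.Agent.Lib.Helper24.ExStmt

open Cfsg

universe u

/-- `GL_n(F)` -/
abbrev GLn (n : ℕ) (F : Type u) [Field F] := Matrix.GeneralLinearGroup (Fin n) F

/-- the scalar matrices -/
abbrev Sc (n : ℕ) (F : Type u) [Field F] : Subgroup (GLn n F) := Cfsg.Geo.scalars (Fin n) F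

/-- the scalar matrix of a unit (`sc n s ∈ Sc n F` by `⟨s, rfl⟩`) -/
def sc {F : Type u} [Field F] (n : ℕ) (s : Fˣ) : GLn n F :=
  Units.map (Matrix.scalar (Fin n) : F →+* Matrix (Fin n) (Fin n) F).toMonoidHom s

theorem sc_mem {F : Type u} [Field F] (n : ℕ) (s : Fˣ) : sc n s ∈ Sc n F := ⟨s, rfl⟩

/-- the element `y g y⁻¹ g⁻¹` -/
abbrev cm {G : Type u} [Group G] (y g : G) : G := y * g * y⁻¹ * g⁻¹

/-- dimension of the `c`-eigenspace of `g` -/
noncomputable def eDim {F : Type u} [Field F] {n : ℕ} (g : GLn n F) (c : F) : ℕ :=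
  Module.finrank F (Module.End.eigenspace (Matrix.toLin' (g : Matrix (Fin n) (Fin n) F)) c)

/-- the hypotheses of S5877 on `R` -/
structure Setup (F : Type u) [Field F] [Fintype F] (n r : ℕ) (R : Subgroup (GLn n F)) : Prop where
  hr : r.Prime
  hR : IsPGroup r R
  hZ : Nat.card (Subgroup.center R) = r
  hext : commutator R = Subgroup.center R
  hexp : Monoid.exponent R = r ∨ Monoid.exponent R = 4
  hirr : Cfsg.Geo.ActsAbsolutelyIrreducibly (Cfsg.Geo.matrixSet R)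

/-! ### the pieces -/

/-- [BASA] basic facts, part A. -/
def BasA : Prop :=
  ∀ (F : Type u) [Field F] [Fintype F] (n r : ℕ) (R : Subgroup (GLn n F)), Setup F n r R →
    (∀ a : GLn n F, (∀ y ∈ R, a * y = y * a) → a ∈ Sc n F) ∧
    (∀ a ∈ R ⊔ Sc n F, ∀ b ∈ R ⊔ Sc n F,
      a * b * a⁻¹ * b⁻¹ ∈ Sc n F ∧ a * b * a⁻¹ * b⁻¹ ∈ R) ∧
    (∀ h ∈ R ⊔ Sc n F, h ^ r ∈ Sc n F)

/-- [BASB] basic facts, part B. -/
def BasB : Prop :=
  ∀ (F : Type u) [Field F] [Fintype F] (n r : ℕ) (R : Subgroup (GLn n F)), Setup F n r R →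
    (∀ s : Fˣ, s ^ r = 1 → sc n s ∈ R) ∧
    r ∣ n ∧
    (Odd r → ∀ x ∈ R, x ^ r = 1) ∧
    (Odd r → ∀ g ∈ Cfsg.Geo.subgroupNormalizer (R ⊔ Sc n F), ∀ x ∈ R, g * x * g⁻¹ ∈ R)

/-- [EIG] eigenspaces of non-scalar elements of `RZ` have dimension `≤ n / r`. -/
def EigBound : Prop :=
  ∀ (F : Type u) [Field F] [Fintype F] (n r : ℕ) (R : Subgroup (GLn n F)), Setup F n r R →
    ∀ a ∈ R ⊔ Sc n F, a ∉ Sc n F → ∀ c : F, r * eDim a c ≤ n

/-- [INN] an element acting on `R` by scalar multiples lies in `RZ`. -/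
def Inner : Prop :=
  ∀ (F : Type u) [Field F] [Fintype F] (n r : ℕ) (R : Subgroup (GLn n F)), Setup F n r R →
    ∀ g : GLn n F, (∀ y ∈ R, cm y g ∈ Sc n F) → g ∈ R ⊔ Sc n F

/-- [KEY] if `cm y g` does not commute with one of its `g`-conjugates then `2 d ≤ n`. -/
def Key : Prop :=
  ∀ (F : Type u) [Field F] [Fintype F] (n r : ℕ) (R : Subgroup (GLn n F)), Setup F n r R →
    ∀ g ∈ Cfsg.Geo.subgroupNormalizer (R ⊔ Sc n F), ∀ y ∈ R ⊔ Sc n F, ∀ i : ℕ,
      cm y g * (g ^ i * cm y g * (g ^ i)⁻¹) ≠ (g ^ i * cm y g * (g ^ i)⁻¹) * cm y g →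
      ∀ c : F, 2 * eDim g c ≤ n

/-- [HALF] if `cm y g` is not scalar then `2 r d ≤ (r + 1) n`. -/
def Half : Prop :=
  ∀ (F : Type u) [Field F] [Fintype F] (n r : ℕ) (R : Subgroup (GLn n F)), Setup F n r R →
    ∀ g ∈ Cfsg.Geo.subgroupNormalizer (R ⊔ Sc n F), ∀ y ∈ R, cm y g ∉ Sc n F →
      ∀ c : F, 2 * r * eDim g c ≤ (r + 1) * n

/-- [SYMP] abstract group theory: `H` of class 2 modulo the central subgroup `Zs`, with
`H / Zs` of exponent dividing `e`, normalised by `g` with `g ^ ϖ = 1`, `ϖ` odd and prime to `e`.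
If every `cm y g` commutes with all its `g`-conjugates, then every `cm x g` is central in `H`. -/
def SympCoprime : Prop :=
  ∀ (G : Type u) [Group G] (H Zs : Subgroup G) (g : G) (ϖ e : ℕ),
    Zs ≤ H → (∀ z ∈ Zs, ∀ h ∈ H, z * h = h * z) →
    (∀ a ∈ H, ∀ b ∈ H, a * b * a⁻¹ * b⁻¹ ∈ Zs) → (∀ h ∈ H, h ^ e ∈ Zs) →
    Nat.Coprime ϖ e → Odd ϖ → g ^ ϖ = 1 →
    (∀ h ∈ H, g * h * g⁻¹ ∈ H) → (∀ z ∈ Zs, g * z * g⁻¹ = z) →
    (∀ y ∈ H, ∀ i : ℕ,
      cm y g * (g ^ i * cm y g * (g ^ i)⁻¹) = (g ^ i * cm y g * (g ^ i)⁻¹) * cm y g) →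
    ∀ x ∈ H, ∀ h ∈ H, cm x g * h = h * cm x g

/-- [CASEB] the coprime case: `ϖ` odd, `ϖ ≠ r`. -/
def CaseB : Prop :=
  ∀ (F : Type u) [Field F] [Fintype F] (n r : ℕ) (R : Subgroup (GLn n F)), Setup F n r R →
    ∀ g ∈ Cfsg.Geo.subgroupNormalizer (R ⊔ Sc n F), g ∉ Sc n F →
      ∀ ϖ : ℕ, ϖ.Prime → orderOf g = ϖ → ϖ ≠ 2 → ϖ ≠ r → ∀ c : F, 2 * eDim g c ≤ n

/-- [SHIFT] pure linear algebra: if `g b g⁻¹ = s b` with a scalar `s ≠ 1`, then `ϖ d ≤ n`. -/
def Shift : Prop :=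
  ∀ (F : Type u) [Field F] (n : ℕ) (g b : GLn n F) (s : Fˣ), s ≠ 1 →
    g * b * g⁻¹ = sc n s * b →
    ∀ ϖ : ℕ, ϖ.Prime → orderOf g = ϖ → ∀ c : F, ϖ * eDim g c ≤ n

/-- [TWO] `orderOf g = r`: a non-scalar `a' ∈ R` commuting with `g` and `a''` commuting with
`a'` with `g a'' g⁻¹ = a' a''` give `r² d ≤ (2 r - 1) n`. -/
def Two : Prop :=
  ∀ (F : Type u) [Field F] [Fintype F] (n r : ℕ) (R : Subgroup (GLn n F)), Setup F n r R →
    Odd r → ∀ g a' a'' : GLn n F, orderOf g = r → a' ∈ R → a' ∉ Sc n F →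
      a' * a'' = a'' * a' → g * a' = a' * g → g * a'' * g⁻¹ = a' * a'' →
      ∀ c : F, r ^ 2 * eDim g c ≤ (2 * r - 1) * n

/-- [QUAD] `r` odd: if `a = cm y g` commutes with `g` but not with `y`, then `r d ≤ 2 n`. -/
def Quad : Prop :=
  ∀ (F : Type u) [Field F] [Fintype F] (n r : ℕ) (R : Subgroup (GLn n F)), Setup F n r R →
    Odd r → ∀ g ∈ Cfsg.Geo.subgroupNormalizer (R ⊔ Sc n F), ∀ y ∈ R,
      g * cm y g = cm y g * g → cm y g * y ≠ y * cm y g →
      ∀ c : F, r * eDim g c ≤ 2 * n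

/-- [CLAIMC] `orderOf g = r` odd, `g ∉ RZ`: one of four configurations occurs. -/
def ClaimC : Prop :=
  ∀ (F : Type u) [Field F] [Fintype F] (n r : ℕ) (R : Subgroup (GLn n F)), Setup F n r R →
    Odd r → ∀ g ∈ Cfsg.Geo.subgroupNormalizer (R ⊔ Sc n F), orderOf g = r → g ∉ R ⊔ Sc n F →
      (∃ y ∈ R, ∃ i : ℕ,
        cm y g * (g ^ i * cm y g * (g ^ i)⁻¹) ≠ (g ^ i * cm y g * (g ^ i)⁻¹) * cm y g) ∨
      (∃ b ∈ R, ∃ s : Fˣ, s ≠ 1 ∧ g * b * g⁻¹ = sc n s * b) ∨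
      (∃ a' ∈ R, ∃ a'' ∈ R, a' ∉ Sc n F ∧ a' * a'' = a'' * a' ∧ g * a' = a' * g ∧
        g * a'' * g⁻¹ = a' * a'') ∨
      (∃ y ∈ R, g * cm y g = cm y g * g ∧ cm y g * y ≠ y * cm y g)

/-! ### the assembly -/

theorem thm_of (hBB : BasB.{u}) (hEig : EigBound.{u}) (hInn : Inner.{u}) (hKey : Key.{u})
    (hHalf : Half.{u}) (hB : CaseB.{u}) (hShift : Shift.{u}) (hTwo : Two.{u}) (hQuad : Quad.{u})
    (hC : ClaimC.{u})
    {F : Type u} [Field F] [Fintype F] {n r ϖ : ℕ}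
    (R : Subgroup (Matrix.GeneralLinearGroup (Fin n) F)) (hr : r.Prime) (hR : IsPGroup r R)
    (hZ : Nat.card (Subgroup.center R) = r) (hext : commutator R = Subgroup.center R)
    (hexp : Monoid.exponent R = r ∨ Monoid.exponent R = 4)
    (hirr : Cfsg.Geo.ActsAbsolutelyIrreducibly (Cfsg.Geo.matrixSet R))
    (g : Matrix.GeneralLinearGroup (Fin n) F)
    (hg : g ∈ Cfsg.Geo.subgroupNormalizer (R ⊔ Cfsg.Geo.scalars (Fin n) F))
    (hϖ : ϖ.Prime) (hord : orderOf g = ϖ) (hns : g ∉ Cfsg.Geo.scalars (Fin n) F) (c : F) :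
    (ϖ = 2 → 4 * Module.finrank F (Module.End.eigenspace
      (Matrix.toLin' (g : Matrix (Fin n) (Fin n) F)) c) ≤ 3 * n) ∧
    (ϖ = 3 → 3 * Module.finrank F (Module.End.eigenspace
      (Matrix.toLin' (g : Matrix (Fin n) (Fin n) F)) c) ≤ 2 * n) ∧
    (3 < ϖ → 2 * Module.finrank F (Module.End.eigenspace
      (Matrix.toLin' (g : Matrix (Fin n) (Fin n) F)) c) ≤ n) ∧
    (ϖ = 3 → ¬ 3 ∣ n → 2 * Module.finrank F (Module.End.eigenspace
      (Matrix.toLin' (g : Matrix (Fin n) (Fin n) F)) c) ≤ n) := by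
  have S : Setup F n r R := ⟨hr, hR, hZ, hext, hexp, hirr⟩
  have hr2 : 2 ≤ r := hr.two_le
  show (ϖ = 2 → 4 * eDim g c ≤ 3 * n) ∧ (ϖ = 3 → 3 * eDim g c ≤ 2 * n) ∧
    (3 < ϖ → 2 * eDim g c ≤ n) ∧ (ϖ = 3 → ¬ 3 ∣ n → 2 * eDim g c ≤ n)
  generalize hd : eDim g c = d
  -- the general bound
  have GB : 2 * r * d ≤ (r + 1) * n := by
    by_cases hgR : g ∈ R ⊔ Sc n F
    · have h1 := hEig F n r R S g hgR hns c
      rw [hd] at h1
      nlinarith
    · have h2 : ¬ ∀ y ∈ R, cm y g ∈ Sc n F := fun h => hgR (hInn F n r R S g h)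
      push_neg at h2
      obtain ⟨y, hy, hyg⟩ := h2
      have h3 := hHalf F n r R S g hg y hy hyg c
      rw [hd] at h3
      exact h3
  have hBd : ϖ ≠ 2 → ϖ ≠ r → 2 * d ≤ n := by
    intro h2 hne
    have h1 := hB F n r R S g hg hns ϖ hϖ hord h2 hne c
    rw [hd] at h1
    exact h1
  refine ⟨?_, ?_, ?_, ?_⟩
  · intro _
    have h1 : r * (4 * d) ≤ r * (3 * n) := by nlinarith
    exact Nat.le_of_mul_le_mul_left h1 (by omega)
  · intro h3
    by_cases hr3 : r = 2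
    · have h1 := hBd (by omega) (by omega)
      omega
    · have hr3' : 3 ≤ r := by omega
      have h1 : r * (3 * d) ≤ r * (2 * n) := by nlinarith
      exact Nat.le_of_mul_le_mul_left h1 (by omega)
  · intro h3
    by_cases hne : ϖ = r
    · subst hne
      have hodd : Odd ϖ := hϖ.odd_of_ne_two (by omega)
      by_cases hgR : g ∈ R ⊔ Sc n F
      · have h1 := hEig F n ϖ R S g hgR hns c
        rw [hd] at h1
        nlinarith
      · rcases hC F n ϖ R S hodd g hg hord hgR with ⟨y, hy, i, hyi⟩ | ⟨b, -, s, hs, hb⟩ |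
          ⟨a', ha', a'', -, ha's, hcomm, hga', hga''⟩ | ⟨y, hy, hy1, hy2⟩
        · have h1 := hKey F n ϖ R S g hg y (Subgroup.mem_sup_left hy) i hyi c
          rw [hd] at h1
          exact h1
        · have h1 := hShift F n g b s hs hb ϖ hϖ hord c
          rw [hd] at h1
          nlinarith
        · have h1 := hTwo F n ϖ R S hodd g a' a'' hord ha' ha's hcomm hga' hga'' c
          rw [hd] at h1
          have h2 : 2 * (2 * ϖ - 1) ≤ ϖ ^ 2 := by
            have : 2 * ϖ - 1 ≤ 2 * ϖ := Nat.sub_le _ _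
            nlinarith
          have h4 : ϖ ^ 2 * (2 * d) ≤ ϖ ^ 2 * n := by
            calc ϖ ^ 2 * (2 * d) = 2 * (ϖ ^ 2 * d) := by ring
              _ ≤ 2 * ((2 * ϖ - 1) * n) := by omega
              _ = (2 * (2 * ϖ - 1)) * n := by ring
              _ ≤ ϖ ^ 2 * n := Nat.mul_le_mul_right n h2
          exact Nat.le_of_mul_le_mul_left h4 (by positivity)
        · have h1 := hQuad F n ϖ R S hodd g hg y hy hy1 hy2 c
          rw [hd] at h1
          have h4 : ϖ * (2 * d) ≤ ϖ * n := by nlinarith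
          exact Nat.le_of_mul_le_mul_left h4 (by omega)
    · exact hBd (by omega) hne
  · intro h3 hn
    have hrn : r ∣ n := (hBB F n r R S).2.1
    have hne : ϖ ≠ r := by
      rintro rfl
      exact hn (h3 ▸ hrn)
    exact hBd (by omega) hne

end Cfsg.Agent.Lib.Helper24.ExStmt
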