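import Mathlib
import Cfsg.Agent.Lib.Helper24.ExStmt

/-!
# S5877, piece INN: an element acting on `R` by scalar multiples lies in `R ⊔ Sc`.

Dedekind: the quotient `Q = R / Z(R)` has at most `|Q|` homomorphisms to `F`; the elements of `R`
already give `|Q|` of them.
-/

set_option autoImplicit false

namespace Cfsg.Agent.Lib.Helper24.ExINN

open Cfsg Cfsg.Agent.Lib.Helper24.ExStmt

universe u

/-- Dedekind: a finite group has at most `|Q|` homomorphisms to a finite field. -/
theorem card_monoidHom_le (Q : Type u) [Group Q] [Finite Q] (F : Type u) [Field F] [Finite F] :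
    Nat.card (Q →* F) ≤ Nat.card Q := by
  classical
  haveI := Fintype.ofFinite Q
  haveI : Finite (Q →* F) :=
    Finite.of_injective (fun f : Q →* F => (f : Q → F)) DFunLike.coe_injective
  haveI := Fintype.ofFinite (Q →* F)
  have h := (linearIndependent_monoidHom Q F).fintype_card_le_finrank
  rw [Module.finrank_fintype_fun_eq_card] at h
  rw [Nat.card_eq_fintype_card, Nat.card_eq_fintype_card]
  exact h

/-- scalars are central -/
theorem sc_central {F : Type u} [Field F] {n : ℕ} (s : GLn n F) (hs : s ∈ Sc n F) (h : GLn n F) :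
    s * h = h * s := by
  obtain ⟨c, hc⟩ := (Cfsg.Geo.mem_scalars_iff s).1 hs
  apply Units.ext
  rw [Units.val_mul, Units.val_mul, hc]
  simp

/-- `sc n` is injective for `0 < n` -/
theorem sc_inj {F : Type u} [Field F] {n : ℕ} (hn : 0 < n) {s t : Fˣ} (h : sc n s = sc n t) :
    s = t := by
  have h1 : ((sc n s : GLn n F) : Matrix (Fin n) (Fin n) F) ⟨0, hn⟩ ⟨0, hn⟩
      = ((sc n t : GLn n F) : Matrix (Fin n) (Fin n) F) ⟨0, hn⟩ ⟨0, hn⟩ := by rw [h]
  simp [sc] at h1
  exact Units.ext h1

theorem sc_mul {F : Type u} [Field F] (n : ℕ) (s t : Fˣ) : sc n (s * t) = sc n s * sc n t := by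
  unfold sc
  exact map_mul _ s t

theorem sc_one {F : Type u} [Field F] (n : ℕ) : sc n (1 : Fˣ) = 1 := by
  unfold sc
  exact map_one _

/-- the character of `R` attached to an element acting by scalar multiples -/
theorem exists_hom {F : Type u} [Field F] {n : ℕ} (hn : 0 < n) (R : Subgroup (GLn n F))
    (h : GLn n F) (hh : ∀ y ∈ R, cm y h ∈ Sc n F) :
    ∃ χ : R →* Fˣ, ∀ y : R, cm (y : GLn n F) h = sc n (χ y) := by
  choose f hf using fun y : R => MonoidHom.mem_range.1 (hh y y.2)
  have hf' : ∀ y : R, sc n (f y) = cm (y : GLn n F) h := hf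
  refine ⟨MonoidHom.mk' f ?_, fun y => (hf' y).symm⟩
  intro a b
  apply sc_inj hn
  rw [sc_mul, hf', hf', hf']
  have hc := sc_central (cm (b : GLn n F) h) (hh b b.2)
  have e1 : cm ((a * b : R) : GLn n F) h
      = (a : GLn n F) * (cm (b : GLn n F) h) * (h * (a : GLn n F)⁻¹ * h⁻¹) := by
    simp only [cm, Subgroup.coe_mul]
    group
  rw [e1, ← hc (a : GLn n F), mul_assoc, ← hc]
  simp only [cm]
  group

theorem conj_of_cm_eq {G : Type u} [Group G] (y h h' : G) (e : cm y h = cm y h') :
    y * (h⁻¹ * h') = (h⁻¹ * h') * y := by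
  have e1 : y * h * y⁻¹ = y * h' * y⁻¹ * h'⁻¹ * h := by
    have : y * h * y⁻¹ = cm y h * h := by simp only [cm]; group
    rw [this, e]
  calc y * (h⁻¹ * h') = (y * h * y⁻¹)⁻¹ * (y * h') := by group
    _ = (y * h' * y⁻¹ * h'⁻¹ * h)⁻¹ * (y * h') := by rw [e1]
    _ = (h⁻¹ * h') * y := by group

theorem main : BasA.{u} → Inner.{u} := by
  intro hA F _ _ n r R S g hg
  obtain ⟨hA1, hA2, -⟩ := hA F n r R S
  rcases Nat.eq_zero_or_pos n with rfl | hn
  · have : g = 1 := Subsingleton.elim _ _
    rw [this]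
    exact one_mem _
  have hxR : ∀ x ∈ R, ∀ y ∈ R, cm y x ∈ Sc n F := fun x hx y hy =>
    (hA2 y (Subgroup.mem_sup_left hy) x (Subgroup.mem_sup_left hx)).1
  obtain ⟨χg, hχg⟩ := exists_hom hn R g hg
  choose χ hχ using fun x : R => exists_hom hn R (x : GLn n F) (hxR x x.2)
  -- characters are trivial on the center
  have hker : ∀ (φ : R →* Fˣ) (h : GLn n F), (∀ y : R, cm (y : GLn n F) h = sc n (φ y)) →
      Subgroup.center R ≤ φ.ker := by
    intro φ h hφ z hz
    rw [MonoidHom.mem_ker]
    apply sc_inj hn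
    rw [← hφ z, sc_one]
    have hzs : (z : GLn n F) ∈ Sc n F := hA1 _ (fun y hy => by
      have h1 := Subgroup.mem_center_iff.1 hz ⟨y, hy⟩
      have h2 := congrArg Subtype.val h1
      simpa using h2.symm)
    show (z : GLn n F) * h * (z : GLn n F)⁻¹ * h⁻¹ = 1
    rw [sc_central _ hzs h]
    group
  haveI : Finite (GLn n F) := inferInstance
  haveI : Finite R := inferInstance
  -- the map from the quotient to the characters of the quotient
  let Φ : (R ⧸ Subgroup.center R) → ((R ⧸ Subgroup.center R) →* F) := fun q =>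
    (Units.coeHom F).comp (QuotientGroup.lift (Subgroup.center R) (χ q.out)
      (hker (χ q.out) _ (hχ q.out)))
  let Ψ : (R ⧸ Subgroup.center R) →* F :=
    (Units.coeHom F).comp (QuotientGroup.lift (Subgroup.center R) χg (hker χg g hχg))
  have hΦ : ∀ (q : R ⧸ Subgroup.center R) (y : R), Φ q (QuotientGroup.mk y) = ((χ q.out y : Fˣ) : F) := by
    intro q y
    rfl
  have hΨ : ∀ (y : R), Ψ (QuotientGroup.mk y) = ((χg y : Fˣ) : F) := by
    intro y
    rfl
  have hinj : Function.Injective Φ := by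
    intro q q' hq
    have h1 : ∀ y : R, (y : GLn n F) * ((q.out : GLn n F)⁻¹ * (q'.out : GLn n F))
        = ((q.out : GLn n F)⁻¹ * (q'.out : GLn n F)) * (y : GLn n F) := by
      intro y
      apply conj_of_cm_eq
      rw [hχ q.out y, hχ q'.out y]
      congr 1
      apply Units.ext
      rw [← hΦ q y, ← hΦ q' y, hq]
    have h2 : (q.out)⁻¹ * q'.out ∈ Subgroup.center R := by
      rw [Subgroup.mem_center_iff]
      intro y
      apply Subtype.ext
      simpa using h1 y
    have h3 : (QuotientGroup.mk q.out : R ⧸ Subgroup.center R) = QuotientGroup.mk q'.out :=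
      QuotientGroup.eq.2 h2
    rwa [QuotientGroup.out_eq', QuotientGroup.out_eq'] at h3
  haveI : Finite ((R ⧸ Subgroup.center R) →* F) :=
    Finite.of_injective (fun f : (R ⧸ Subgroup.center R) →* F => (f : (R ⧸ Subgroup.center R) → F))
      DFunLike.coe_injective
  have hbij : Function.Bijective Φ :=
    hinj.bijective_of_nat_card_le (card_monoidHom_le _ F)
  obtain ⟨q, hq⟩ := hbij.2 Ψ
  -- `q.out⁻¹ * g` commutes with `R`
  have h1 : ∀ y ∈ R, ((q.out : GLn n F)⁻¹ * g) * y = y * ((q.out : GLn n F)⁻¹ * g) := by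
    intro y hy
    symm
    apply conj_of_cm_eq
    have := hχ q.out ⟨y, hy⟩
    rw [this, hχg ⟨y, hy⟩]
    congr 1
    apply Units.ext
    rw [← hΦ q ⟨y, hy⟩, ← hΨ ⟨y, hy⟩, hq]
  have h2 := hA1 _ h1
  have h3 : g = (q.out : GLn n F) * ((q.out : GLn n F)⁻¹ * g) := by group
  rw [h3]
  exact Subgroup.mul_mem_sup q.out.2 h2

end Cfsg.Agent.Lib.Helper24.ExINN
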