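import Mathlib
import Cfsg.Agent.Lib.Helper80.FTStmt
import Cfsg.Agent.S0039

set_option autoImplicit false

namespace Cfsg.Agent.Lib.Helper24.FTFROBC

open Cfsg.Agent.Lib.Helper80.FTStmt

universe u

theorem main : FrobC.{u} := by
  intro G _ _ k h hk1 hh1 hkh hcard hord L hLn hLk
  haveI := hLn
  have hidx : L.index = h := by
    have h1 := Subgroup.card_mul_index L
    rw [hLk, hcard] at h1
    exact Nat.eq_of_mul_eq_mul_left (by omega) h1
  obtain ⟨C, hC⟩ := Subgroup.exists_right_complement'_of_coprime (N := L)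
    (by rw [hLk, hidx]; exact hkh)
  have hCcard : Nat.card C = h := by
    have h1 := hC.card_mul
    rw [hLk, hcard] at h1
    exact Nat.eq_of_mul_eq_mul_left (by omega) h1
  have hLbot : L ≠ ⊥ := by
    rintro rfl
    rw [Subgroup.card_bot] at hLk
    omega
  have hCbot : C ≠ ⊥ := by
    rintro rfl
    rw [Subgroup.card_bot] at hCcard
    omega
  refine ⟨C, (Cfsg.Agent.S0039.result L C hC hLbot hCbot).mpr ?_⟩
  intro c hc hc1
  rw [eq_bot_iff]
  intro l hl
  rw [Subgroup.mem_bot]
  have hlL : l ∈ L := hl.1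
  have hlc : l ∈ Subgroup.centralizer {c} := hl.2
  rw [Subgroup.mem_centralizer_iff] at hlc
  have hcomm : Commute l c := (hlc c rfl).symm
  by_contra hl1
  have hol : orderOf l ∣ k := by
    rw [← hLk]
    exact Subgroup.orderOf_dvd_natCard L hlL
  have hoc : orderOf c ∣ h := by
    rw [← hCcard]
    exact Subgroup.orderOf_dvd_natCard C hc
  have hcop : Nat.Coprime (orderOf l) (orderOf c) :=
    Nat.Coprime.coprime_dvd_left hol (Nat.Coprime.coprime_dvd_right hoc hkh)
  have hmul : orderOf (l * c) = orderOf l * orderOf c :=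
    hcomm.orderOf_mul_eq_mul_orderOf_of_coprime hcop
  have hl2 : 1 < orderOf l := by
    have h0 : orderOf l ≠ 0 := (orderOf_pos l).ne'
    have h1' : orderOf l ≠ 1 := fun h => hl1 (orderOf_eq_one_iff.mp h)
    omega
  have hc2 : 1 < orderOf c := by
    have h0 : orderOf c ≠ 0 := (orderOf_pos c).ne'
    have h1' : orderOf c ≠ 1 := fun h => hc1 (orderOf_eq_one_iff.mp h)
    omega
  rcases hord (l * c) with hd | hd
  · rw [hmul] at hd
    have h1' : orderOf c ∣ k := Dvd.dvd.trans (Dvd.intro_left _ rfl) hd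
    have h2 := Nat.dvd_gcd h1' hoc
    rw [hkh.gcd_eq_one] at h2
    have h3 := Nat.dvd_one.mp h2
    omega
  · rw [hmul] at hd
    have h1' : orderOf l ∣ h := Dvd.dvd.trans (Dvd.intro _ rfl) hd
    have h2 := Nat.dvd_gcd hol h1'
    rw [hkh.gcd_eq_one] at h2
    have h3 := Nat.dvd_one.mp h2
    omega

end Cfsg.Agent.Lib.Helper24.FTFROBC
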