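import Mathlib
import Cfsg.Agent.Lib.Helper80.FTStmt

set_option autoImplicit false

namespace Cfsg.Agent.Lib.Helper24.FTNSB

open Cfsg.Agent.Lib.Helper80.FTStmt

universe u

theorem fac_one (p t : ℕ) (hp : p.Prime) (ht : ¬ p ∣ t) (ht0 : t ≠ 0) :
    (p * t).factorization p = 1 := by
  rw [Nat.factorization_mul hp.ne_zero ht0, Finsupp.add_apply, hp.factorization_self,
    Nat.factorization_eq_zero_of_not_dvd ht]

theorem fac_aux (p a m : ℕ) (hp : p.Prime) (ha : ¬ p ∣ a) (ha0 : a ≠ 0) (hm : ¬ p ∣ m)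
    (hm0 : m ≠ 0) : (p * (a * m)).factorization p = 1 := by
  apply fac_one p (a * m) hp _ (mul_ne_zero ha0 hm0)
  intro hd
  rcases (Nat.Prime.dvd_mul hp).mp hd with h | h
  · exact ha h
  · exact hm h

theorem main (h : SL15) : NSB.{u} := by
  intro C _ _ C₀ S M hC₀n hidx hsup hinf hcomm hiso hcop
  obtain ⟨φ⟩ := hiso
  obtain ⟨h120, hno15⟩ := h
  have hS : Nat.card S = 120 := by rw [Nat.card_congr φ.toEquiv, h120]
  have comm : ∀ (s : S) (m : M), Commute (S.subtype s) (M.subtype m) :=
    fun s m => hcomm s s.2 m m.2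
  have hrange : (MonoidHom.noncommCoprod S.subtype M.subtype comm).range = C₀ := by
    rw [MonoidHom.noncommCoprod_range, Subgroup.range_subtype, Subgroup.range_subtype, hsup]
  have hinj : Function.Injective (MonoidHom.noncommCoprod S.subtype M.subtype comm) := by
    rw [MonoidHom.noncommCoprod_injective]
    refine ⟨Subgroup.subtype_injective S, Subgroup.subtype_injective M, ?_⟩
    rw [Subgroup.range_subtype, Subgroup.range_subtype, disjoint_iff, hinf]
  have hC₀ : Nat.card C₀ = 120 * Nat.card M := by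
    rw [← hrange, ← hS, ← Nat.card_prod]
    exact (Nat.card_congr (MonoidHom.ofInjective hinj).toEquiv).symm
  have hM0 : Nat.card M ≠ 0 := Nat.card_pos.ne'
  have h3M : ¬ 3 ∣ Nat.card M := by
    intro hd
    have h1 : 3 ∣ Nat.gcd (Nat.card M) 30 := Nat.dvd_gcd hd (by norm_num)
    rw [hcop.gcd_eq_one] at h1
    omega
  have h5M : ¬ 5 ∣ Nat.card M := by
    intro hd
    have h1 : 5 ∣ Nat.gcd (Nat.card M) 30 := Nat.dvd_gcd hd (by norm_num)
    rw [hcop.gcd_eq_one] at h1
    omega
  have hcardC : Nat.card C = C₀.index * (120 * Nat.card M) := by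
    rw [← hC₀, mul_comm]
    exact (Subgroup.card_mul_index C₀).symm
  have hfac : (Nat.card C).factorization 3 = 1 ∧ (Nat.card C).factorization 5 = 1 := by
    rcases hidx with h1 | h2
    · rw [hcardC, h1]
      constructor
      · have e : 1 * (120 * Nat.card M) = 3 * (40 * Nat.card M) := by ring
        rw [e]
        exact fac_aux 3 40 _ Nat.prime_three (by omega) (by omega) h3M hM0
      · have e : 1 * (120 * Nat.card M) = 5 * (24 * Nat.card M) := by ring
        rw [e]
        exact fac_aux 5 24 _ Nat.prime_five (by omega) (by omega) h5M hM0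
    · rw [hcardC, h2]
      constructor
      · have e : 2 * (120 * Nat.card M) = 3 * (80 * Nat.card M) := by ring
        rw [e]
        exact fac_aux 3 80 _ Nat.prime_three (by omega) (by omega) h3M hM0
      · have e : 2 * (120 * Nat.card M) = 5 * (48 * Nat.card M) := by ring
        rw [e]
        exact fac_aux 5 48 _ Nat.prime_five (by omega) (by omega) h5M hM0
  refine ⟨hfac.1, hfac.2, ?_⟩
  intro y hy
  have hy15 : y ^ 15 = 1 := by
    rw [← hy]
    exact pow_orderOf_eq_one y
  have hyC₀ : y ∈ C₀ := by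
    rcases hidx with h1 | h2
    · rw [Subgroup.index_eq_one.mp h1]
      trivial
    · have h2' := Subgroup.sq_mem_of_index_two h2 y
      have e : y = (y ^ 2) ^ 8 := by
        rw [← pow_mul]
        have e2 : y ^ (2 * 8) = y ^ 15 * y := by rw [← pow_succ]
        rw [e2, hy15, one_mul]
      rw [e]
      exact C₀.pow_mem h2' 8
  rw [← hrange] at hyC₀
  obtain ⟨⟨s, m⟩, hsm⟩ := hyC₀
  have hsm' : (s : C) * (m : C) = y := by
    rw [← hsm]
    rfl
  have hc : Commute (s : C) (m : C) := hcomm s s.2 m m.2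
  have hpow : (s : C) ^ 15 * (m : C) ^ 15 = 1 := by
    rw [← hc.mul_pow, hsm', hy15]
  have hs15 : (s : C) ^ 15 ∈ S ⊓ M := by
    refine ⟨S.pow_mem s.2 15, ?_⟩
    have e : (s : C) ^ 15 = ((m : C) ^ 15)⁻¹ := eq_inv_of_mul_eq_one_left hpow
    rw [e]
    exact M.inv_mem (M.pow_mem m.2 15)
  rw [hinf, Subgroup.mem_bot] at hs15
  have hm15 : (m : C) ^ 15 = 1 := by
    rw [hs15, one_mul] at hpow
    exact hpow
  have hm1 : (m : C) = 1 := by
    have h1 : orderOf (m : C) ∣ 15 := orderOf_dvd_of_pow_eq_one hm15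
    have h2 : orderOf (m : C) ∣ Nat.card M := Subgroup.orderOf_dvd_natCard M m.2
    have h3 : orderOf (m : C) ∣ Nat.gcd (Nat.card M) 30 :=
      Nat.dvd_gcd h2 (h1.trans (by norm_num))
    rw [hcop.gcd_eq_one] at h3
    exact orderOf_eq_one_iff.mp (Nat.dvd_one.mp h3)
  have hys : y = (s : C) := by rw [← hsm', hm1, mul_one]
  have h15 : orderOf (φ s) = 15 := by
    rw [MulEquiv.orderOf_eq, ← Subgroup.orderOf_coe, ← hys, hy]
  exact hno15 (φ s) h15

end Cfsg.Agent.Lib.Helper24.FTNSB
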