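import Mathlib

set_option autoImplicit false

/-!
A Frobenius group `N ⋊ H` acting on an abelian group `W` of order prime to `|N|` with
`C_W(N) = 1` and `C_W(H) = 1` forces `W = 1` (norm argument).
-/

namespace Cfsg.Agent.Lib.Helper24.FrobAction

variable {F W : Type*} [Group F] [Finite F] [CommGroup W] [Finite W]

/-- Abstract norm argument: `N` normal, `H` acting on `N` without nontrivial fixed points,
`C_W(N) = 1`, `C_W(H) = 1`, `gcd(|W|, |N|) = 1` imply `W = 1`. -/
theorem eq_one_of_fixed_points_trivial (φ : F →* MulAut W) (N H : Subgroup F) [N.Normal]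
    (hfrob : ∀ h ∈ H, h ≠ 1 → ∀ n ∈ N, n * h = h * n → n = 1)
    (hcop : (Nat.card W).Coprime (Nat.card N))
    (hCN : ∀ w : W, (∀ n ∈ N, φ n w = w) → w = 1)
    (hCH : ∀ w : W, (∀ h ∈ H, φ h w = w) → w = 1) (w : W) : w = 1 := by
  classical
  haveI : Fintype N := Fintype.ofFinite N
  haveI : Fintype H := Fintype.ofFinite H
  -- norms are trivial
  have hN : ∀ w : W, ∏ n : N, φ (n : F) w = 1 := by
    intro w
    apply hCN
    intro m hm
    rw [map_prod]
    have : ∀ n : N, φ m (φ (n : F) w) = φ ((⟨m, hm⟩ * n : N) : F) w := by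
      intro n
      rw [Subgroup.coe_mul, map_mul, MulAut.mul_apply]
    simp_rw [this]
    exact Fintype.prod_equiv (Equiv.mulLeft (⟨m, hm⟩ : N)) _ _ (fun n => rfl)
  have hH : ∀ w : W, ∏ h : H, φ (h : F) w = 1 := by
    intro w
    apply hCH
    intro m hm
    rw [map_prod]
    have : ∀ n : H, φ m (φ (n : F) w) = φ ((⟨m, hm⟩ * n : H) : F) w := by
      intro n
      rw [Subgroup.coe_mul, map_mul, MulAut.mul_apply]
    simp_rw [this]
    exact Fintype.prod_equiv (Equiv.mulLeft (⟨m, hm⟩ : H)) _ _ (fun n => rfl)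
  -- double product
  have h1 : ∏ n : N, ∏ h : H, φ ((n : F) * h * (n : F)⁻¹) w = 1 := by
    apply Finset.prod_eq_one
    intro n _
    have h2 : ∀ h : H, φ ((n : F) * h * (n : F)⁻¹) w = φ (n : F) (φ (h : F) (φ (n : F)⁻¹ w)) := by
      intro h
      rw [map_mul, map_mul, MulAut.mul_apply, MulAut.mul_apply]
    simp_rw [h2]
    rw [← map_prod, hH, map_one]
  rw [Finset.prod_comm] at h1
  have h3 : ∀ h : H, h ≠ 1 → ∏ n : N, φ ((n : F) * h * (n : F)⁻¹) w = 1 := by
    intro h hh
    have hmem : ∀ n : N, (n : F) * h * (n : F)⁻¹ * (h : F)⁻¹ ∈ N := by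
      intro n
      have : (h : F) * (n : F)⁻¹ * (h : F)⁻¹ ∈ N :=
        Subgroup.Normal.conj_mem inferInstance _ (N.inv_mem n.2) _
      have e : (n : F) * h * (n : F)⁻¹ * (h : F)⁻¹ = n * ((h : F) * (n : F)⁻¹ * (h : F)⁻¹) := by
        group
      rw [e]
      exact N.mul_mem n.2 this
    have hinj : Function.Injective (fun n : N => (⟨_, hmem n⟩ : N)) := by
      intro n n' hnn
      have h4 : (n : F) * h * (n : F)⁻¹ * (h : F)⁻¹ = (n' : F) * h * (n' : F)⁻¹ * (h : F)⁻¹ :=
        congrArg Subtype.val hnn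
      have h5 : ((n' : F)⁻¹ * n) * h = h * ((n' : F)⁻¹ * n) := by
        have h6 : (n : F) * h * (n : F)⁻¹ = (n' : F) * h * (n' : F)⁻¹ := mul_right_cancel h4
        calc ((n' : F)⁻¹ * n) * h = (n' : F)⁻¹ * ((n : F) * h * (n : F)⁻¹) * n := by group
          _ = (n' : F)⁻¹ * ((n' : F) * h * (n' : F)⁻¹) * n := by rw [h6]
          _ = h * ((n' : F)⁻¹ * n) := by group
      have h7 := hfrob h h.2 (fun h1 => hh (Subtype.ext h1)) _
        (N.mul_mem (N.inv_mem n'.2) n.2) h5
      apply Subtype.ext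
      have : (n : F) = (n' : F) * ((n' : F)⁻¹ * n) := by group
      rw [this, h7, mul_one]
    have hbij : Function.Bijective (fun n : N => (⟨_, hmem n⟩ : N)) :=
      hinj.bijective_of_finite
    have h8 : ∀ n : N, φ ((n : F) * h * (n : F)⁻¹) w =
        φ (((⟨_, hmem n⟩ : N) : F)) (φ (h : F) w) := by
      intro n
      rw [← MulAut.mul_apply, ← map_mul]
      congr 2
      group
    simp_rw [h8]
    rw [Fintype.prod_bijective (fun n : N => (⟨_, hmem n⟩ : N)) hbij
      (fun n => φ (((⟨_, hmem n⟩ : N) : F)) (φ (h : F) w)) (fun m => φ (m : F) (φ (h : F) w))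
      (fun n => rfl)]
    exact hN _
  rw [Fintype.prod_eq_single (1 : H) h3] at h1
  have h9 : w ^ Nat.card N = 1 := by
    rw [← h1]
    simp [Finset.prod_const, Finset.card_univ, Nat.card_eq_fintype_card]
  have h10 : orderOf w ∣ Nat.card N := orderOf_dvd_of_pow_eq_one h9
  have h11 : orderOf w ∣ Nat.card W := orderOf_dvd_natCard w
  have h12 : orderOf w = 1 := Nat.eq_one_of_dvd_coprimes hcop h11 h10
  exact orderOf_eq_one_iff.mp h12

end Cfsg.Agent.Lib.Helper24.FrobAction
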