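import Mathlib
import Cfsg.Agent.Lib.Helper27.JzStmt

/-!
# S5403, piece A5M (second seat, helper24)
-/

set_option autoImplicit false

namespace Cfsg.Agent.Lib.Helper24.JzA5M

open Cfsg Cfsg.Agent.Lib.Helper27.OzStmt Cfsg.Agent.Lib.Helper27.JzStmt

theorem M5 : matOf acode ^ 5 = 1 := by decide +kernel

theorem M_ne : matOf acode ≠ 1 := by decide +kernel

theorem rel1 : matOf xcode * matOf ycode * matOf ycode * matOf xcode
    = matOf ycode * matOf xcode * matOf ycode := by decide +kernel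

theorem rel2 : matOf ycode * matOf xcode * matOf xcode * matOf ycode
    = matOf xcode * matOf ycode * matOf xcode := by decide +kernel

theorem X_notin : ∀ i : Fin 5, matOf xcode ≠ matOf acode ^ (i : ℕ) := by decide +kernel

/-- the matrix of an element of the orthogonal group -/
def cm : O8 →* M8 := (Units.coeHom M8).comp (Subgroup.subtype _)

theorem cm_apply (g : O8) : cm g = ((g : Matrix.GeneralLinearGroup I8 (ZMod 2)) : M8) := rfl

theorem cm_inj : Function.Injective cm := fun _ _ h => Subtype.ext (Units.ext h)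

/-- A5M. -/
theorem main (hC : Cent) (hR : Recog) : A5M := by
  intro Y m x y hm hx hy hmY hxY hyY hcen
  have hm5 : m ^ 5 = 1 := cm_inj (by rw [map_pow, cm_apply, hm, M5, map_one])
  have hm1 : m ≠ 1 := fun h => M_ne (by rw [← hm, ← cm_apply, h, map_one])
  have hord : orderOf m = 5 := by
    have hdvd : orderOf m ∣ 5 := orderOf_dvd_of_pow_eq_one hm5
    rcases (Nat.dvd_prime (by norm_num : Nat.Prime 5)).mp hdvd with h | h
    · exact absurd (orderOf_eq_one_iff.mp h) hm1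
    · exact h
  have hxm : x ∉ Subgroup.zpowers m := by
    intro hx'
    obtain ⟨k, hk⟩ := Subgroup.mem_zpowers_iff.mp hx'
    have h1 : m ^ (k % (5 : ℤ)) = x := by
      have := zpow_mod_orderOf m k
      rw [hord] at this
      rw [← hk]; exact_mod_cast this
    have h2 : 0 ≤ k % (5 : ℤ) := Int.emod_nonneg k (by norm_num)
    have h3 : k % (5 : ℤ) < 5 := Int.emod_lt_of_pos k (by norm_num)
    obtain ⟨i, hi⟩ := Int.eq_ofNat_of_zero_le h2
    rw [hi, zpow_natCast] at h1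
    have hi5 : i < 5 := by omega
    apply X_notin ⟨i, hi5⟩
    rw [← hx, ← hm, ← cm_apply, ← cm_apply, ← map_pow, h1]
  have hN : ((Subgroup.zpowers m).subgroupOf Y).Normal := by
    constructor
    intro n hn g
    rw [Subgroup.mem_subgroupOf] at hn ⊢
    obtain ⟨k, hk⟩ := Subgroup.mem_zpowers_iff.mp hn
    have hg : (g : O8) * m = m * (g : O8) := hcen g g.2
    have h4 : ((g * n * g⁻¹ : ↥Y) : O8) = (n : O8) := by
      rw [Subgroup.coe_mul, Subgroup.coe_mul, Subgroup.coe_inv, ← hk]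
      have hc : Commute (g : O8) (m ^ k) :=
        Commute.zpow_right (show Commute (g : O8) m from hg) k
      rw [hc.eq, mul_inv_cancel_right]
    rw [h4]; exact hn
  haveI := hN
  have hle : Subgroup.zpowers m ≤ Y := (Subgroup.zpowers_le).mpr hmY
  have hcardN : Nat.card ↥((Subgroup.zpowers m).subgroupOf Y) = 5 := by
    rw [Nat.card_congr (Subgroup.subgroupOfEquivOfLe hle).toEquiv, Nat.card_zpowers, hord]
  have hYle : Y ≤ Subgroup.centralizer ({m} : Set O8) := by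
    intro g hg
    rw [Subgroup.mem_centralizer_iff]
    intro h hh
    rw [Set.mem_singleton_iff] at hh
    subst hh
    exact (hcen g hg).symm
  have hcardY : Nat.card ↥Y ≤ 300 := le_trans (Subgroup.card_le_of_le hYle) (hC m hm)
  have hR1 : x * y * y * x = y * x * y :=
    cm_inj (by simp only [map_mul, cm_apply, hx, hy]; exact rel1)
  have hR2 : y * x * x * y = x * y * x :=
    cm_inj (by simp only [map_mul, cm_apply, hx, hy]; exact rel2)
  set x' : ↥Y := ⟨x, hxY⟩ with hx'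
  set y' : ↥Y := ⟨y, hyY⟩ with hy'
  have hR1' : x' * y' * y' * x' = y' * x' * y' := Subtype.ext hR1
  have hR2' : y' * x' * x' * y' = x' * y' * x' := Subtype.ext hR2
  have hxc : x' ∈ Subgroup.closure ({x', y'} : Set ↥Y) := Subgroup.subset_closure (by simp)
  have hyc : y' ∈ Subgroup.closure ({x', y'} : Set ↥Y) := Subgroup.subset_closure (by simp)
  have hc1 : y'⁻¹ * (y'⁻¹ * x'⁻¹) * y'⁻¹⁻¹ * (y'⁻¹ * x'⁻¹)⁻¹ = x' := by
    have h5 : y'⁻¹ * (y'⁻¹ * x'⁻¹) * y'⁻¹⁻¹ * (y'⁻¹ * x'⁻¹)⁻¹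
        = y'⁻¹ * y'⁻¹ * x'⁻¹ * (y' * x' * y') := by group
    rw [h5, ← hR1']; group
  have hc2 : x'⁻¹ * (x'⁻¹ * y'⁻¹) * x'⁻¹⁻¹ * (x'⁻¹ * y'⁻¹)⁻¹ = y' := by
    have h5 : x'⁻¹ * (x'⁻¹ * y'⁻¹) * x'⁻¹⁻¹ * (x'⁻¹ * y'⁻¹)⁻¹
        = x'⁻¹ * x'⁻¹ * y'⁻¹ * (x' * y' * x') := by group
    rw [h5, ← hR2']; group
  have hres := hR (↥Y) ((Subgroup.zpowers m).subgroupOf Y) hcardY hcardN
    ⟨x', y', y'⁻¹, y'⁻¹ * x'⁻¹, x'⁻¹, x'⁻¹ * y'⁻¹,
      by rw [Subgroup.mem_subgroupOf]; exact hxm,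
      inv_mem hyc, mul_mem (inv_mem hyc) (inv_mem hxc),
      inv_mem hxc, mul_mem (inv_mem hxc) (inv_mem hyc),
      by rw [hc1, inv_mul_cancel]; exact one_mem _,
      by rw [hc2, inv_mul_cancel]; exact one_mem _⟩
  exact ⟨(Subgroup.zpowers m).subgroupOf Y, hN, fun g => Subgroup.mem_subgroupOf, hres⟩

end Cfsg.Agent.Lib.Helper24.JzA5M
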