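import Mathlib
import Cfsg.Agent.Lib.Helper27.JzStmt

/-!
# S5403, piece FINAL: the glue (helper24)
-/

set_option autoImplicit false

namespace Cfsg.Agent.Lib.Helper24.JzFINAL

open Cfsg Cfsg.Agent.Lib.Helper27.OzStmt Cfsg.Agent.Lib.Helper27.JzStmt

/-- FINAL. -/
theorem main (h1 : GLoc1) (h2 : GLoc2) (h3 : GLoc3) (h4 : SQ) (h5 : SIso) (h6 : SWit)
    (h7 : FStar2) (h8 : Simple) (h9 : OM4) : Final := by
  intro G _ _ t n a K φ hJ
  have ha : t * a = a * t := hJ.a_t.symm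
  have hS := h1 G t n a K φ ha hJ
  obtain ⟨ψ, hψs, hψk⟩ := h2 G t n a K φ ha hJ
  obtain ⟨hw1, hw2⟩ := h3 G t n a K φ ha hJ
  have hn : (ZA a).Normal := ⟨fun z hz x => by
    have h := hS.central z hz x
    have h' : x * z * x⁻¹ = z := by rw [← h, mul_inv_cancel_right]
    rw [h']; exact hz⟩
  haveI := hn
  obtain ⟨hz2, hQn, hQx, hQc⟩ := h4 (MA a) (ZA a) (toMA a t ha) (QA a K) hS
  haveI := hQn
  obtain ⟨e⟩ := h5 (MA a) (ZA a) (toMA a t ha) (QA a K) A5 hS ψ hψs hψk hQn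
  obtain ⟨hw1', hw2'⟩ := h6 (MA a) (ZA a) (toMA a t ha) (QA a K) hS hw1 hw2
  obtain ⟨hF, hC⟩ := h7 (Cb (MA a) (ZA a) (toMA a t ha))
    (Qb (MA a) (ZA a) (toMA a t ha) (QA a K)) hQx ⟨e⟩ hw1'
  have hsimple : IsSimpleGroup (↥(MA a) ⧸ ZA a) :=
    h8 (↥(MA a) ⧸ ZA a) (zb (MA a) (ZA a) (toMA a t ha)) hz2
      (Qb (MA a) (ZA a) (toMA a t ha) (QA a K)) hC hQx hQc ⟨e⟩ hw2'
  obtain ⟨f⟩ := h9
  have hcard : Nat.card ↥(Subgroup.zpowers a) = 5 := by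
    rw [Nat.card_zpowers]
    have hdvd : orderOf a ∣ 5 := orderOf_dvd_of_pow_eq_one hJ.a5
    rcases (Nat.dvd_prime (by norm_num : Nat.Prime 5)).mp hdvd with h | h
    · exact absurd (orderOf_eq_one_iff.mp h) hJ.a1
    · exact h
  have hnc : ¬ IsMulCommutative (↥(MA a) ⧸ ZA a) := by
    intro hcomm
    obtain ⟨g, k, hk, k', hk', hne⟩ := hw1'
    apply hne
    apply Subtype.ext
    exact (isMulCommutative_iff.mp hcomm) _ _
  exact ⟨Subgroup.zpowers a, hcard, hn, (↥(MA a) ⧸ ZA a), inferInstance, inferInstance,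
    ⟨MulEquiv.refl _⟩, hsimple, hnc, zb (MA a) (ZA a) (toMA a t ha), hz2,
    Qb (MA a) (ZA a) (toMA a t ha) (QA a K), hQn, hF, hQx, hQc, ⟨e.trans f⟩, hw2'⟩

end Cfsg.Agent.Lib.Helper24.JzFINAL
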