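import Mathlib
import Cfsg.Agent.Lib.Helper42.LieOrdStmt
import Cfsg.Prelude.Def_LieTwisted

/-!
# S2363 piece F4: the large Ree groups (order formula as a hypothesis).
-/

set_option autoImplicit false

namespace Cfsg.Agent.Lib.Helper24.LieOrdF4

open Cfsg Cfsg.Agent.Lib.Helper42.LieOrdStmt

universe u

theorem main : F4Stmt.{u} := by
  intro hord G _ _ hG
  obtain ⟨K, _, _, m, hm, hK, ⟨e⟩⟩ := hG
  have hcard : Nat.card G = Nat.card ↥(Cfsg.Lie.twistedF4 K (2 ^ m)) := Nat.card_congr e.toEquiv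
  rw [hord K m hK] at hcard
  have h2 : (2 : ℕ).Prime := Nat.prime_two
  set q : ℕ := 2 ^ (2 * m + 1) with hq
  have hq2 : 2 ≤ q := by
    have : 2 ^ 1 ≤ 2 ^ (2 * m + 1) := Nat.pow_le_pow_right (by norm_num) (by omega)
    simpa using this
  have hA := sub_one_mul_add_one_lt q 1 3 hq2 (by norm_num)
  have hB := sub_one_mul_add_one_lt q 4 6 hq2 (by norm_num)
  have hn1 : ¬ 2 ∣ q - 1 := by
    have := not_dvd_pow_sub_one h2 (2 * m + 1) 1 (by omega) le_rfl
    rwa [pow_one] at this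
  have hn2 : ¬ 2 ∣ q ^ 3 + 1 := not_dvd_pow_add_one h2 (2 * m + 1) 3 (by omega) (by norm_num)
  have hn3 : ¬ 2 ∣ q ^ 4 - 1 := not_dvd_pow_sub_one h2 (2 * m + 1) 4 (by omega) (by norm_num)
  have hn4 : ¬ 2 ∣ q ^ 6 + 1 := not_dvd_pow_add_one h2 (2 * m + 1) 6 (by omega) (by norm_num)
  refine (strong_of_formula 2 (2 * m + 1) h2 1 12 14
    ((q - 1) * (q ^ 3 + 1) * ((q ^ 4 - 1) * (q ^ 6 + 1))) ?_ (by norm_num) ?_ ?_ (by norm_num)
    (by norm_num)).2
  · rw [one_mul, hcard]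
    ring
  · intro h
    rcases (Nat.Prime.dvd_mul h2).mp h with h | h
    · rcases (Nat.Prime.dvd_mul h2).mp h with h | h
      · exact hn1 h
      · exact hn2 h
    · rcases (Nat.Prime.dvd_mul h2).mp h with h | h
      · exact hn3 h
      · exact hn4 h
  · rw [pow_one] at hA
    calc (q - 1) * (q ^ 3 + 1) * ((q ^ 4 - 1) * (q ^ 6 + 1))
        < q ^ (1 + 3) * q ^ (4 + 6) := Nat.mul_lt_mul'' hA hB
      _ = q ^ 14 := by rw [← pow_add]

end Cfsg.Agent.Lib.Helper24.LieOrdF4
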