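import Mathlib
import Cfsg.Agent.Lib.Helper42.LieOrdStmt
import Cfsg.Agent.S0245
import Cfsg.Agent.S0246

/-!
# S2363 piece S: the symplectic groups `PSp_{2m}(q)`.
-/

set_option autoImplicit false

namespace Cfsg.Agent.Lib.Helper24.LieOrdS

open Cfsg Cfsg.Agent.Lib.Helper42.LieOrdStmt

universe u

theorem prod_lt (q : ℕ) (hq : 1 ≤ q) : ∀ m : ℕ,
    ∏ i ∈ Finset.range (m + 1), (q ^ (2 * (i + 1)) - 1) < q ^ ((m + 1) * (m + 2))
  | 0 => by
    simp only [zero_add, Finset.range_one, Finset.prod_singleton, mul_one, one_mul]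
    exact Nat.sub_lt (pow_pos hq 2) one_pos
  | m + 1 => by
    rw [Finset.prod_range_succ]
    have ih := prod_lt q hq m
    have h2 : q ^ (2 * (m + 1 + 1)) - 1 < q ^ (2 * (m + 1 + 1)) :=
      Nat.sub_lt (pow_pos hq _) one_pos
    calc (∏ i ∈ Finset.range (m + 1), (q ^ (2 * (i + 1)) - 1)) * (q ^ (2 * (m + 1 + 1)) - 1)
        < q ^ ((m + 1) * (m + 2)) * q ^ (2 * (m + 1 + 1)) := Nat.mul_lt_mul'' ih h2
      _ = q ^ ((m + 1 + 1) * (m + 1 + 2)) := by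
        rw [← pow_add]
        congr 1
        ring

theorem main : PSpStmt.{u} := by
  intro G _ _ p hp hG
  obtain ⟨F, _, _, hchar, m, hm, -, ⟨e⟩⟩ := hG
  obtain ⟨n, -, hcardF⟩ := FiniteField.card F p
  have hf1 : 1 ≤ (n : ℕ) := n.pos
  have hcardG : Nat.card G = Nat.card (PSp m F) := Nat.card_congr e.toEquiv
  have hSp := Cfsg.Agent.S0245.result hcardF m
  have hZ := Cfsg.Agent.S0246.result hcardF m (by omega)
  have hlag : Nat.card (Matrix.symplecticGroup (Fin m) F) =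
      Nat.card (PSp m F) * Nat.card (Subgroup.center (Matrix.symplecticGroup (Fin m) F)) :=
    Subgroup.card_eq_card_quotient_mul_card_subgroup _
  obtain ⟨m', rfl⟩ : ∃ m', m = m' + 1 := ⟨m - 1, by omega⟩
  have hm' : 1 ≤ m' := by omega
  refine (strong_of_formula p (n : ℕ) hp (Nat.gcd 2 (p ^ (n : ℕ) - 1)) ((m' + 1) ^ 2)
    ((m' + 1) * (m' + 2))
    (∏ i ∈ Finset.range (m' + 1), ((p ^ (n : ℕ)) ^ (2 * (i + 1)) - 1)) ?_ ?_ ?_ ?_ ?_ ?_).2
  · rw [hcardG, mul_comm, ← hZ, ← hlag, hSp]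
  · intro h
    have h1 : p ∣ p ^ (n : ℕ) - 1 := dvd_trans h (Nat.gcd_dvd_right _ _)
    have h2 := not_dvd_pow_sub_one hp (n : ℕ) 1 hf1 le_rfl
    rw [pow_one] at h2
    exact h2 h1
  · intro h
    obtain ⟨i, -, hi⟩ := (Prime.dvd_finset_prod_iff hp.prime _).mp h
    exact not_dvd_pow_sub_one hp (n : ℕ) (2 * (i + 1)) hf1 (by omega) hi
  · exact prod_lt (p ^ (n : ℕ)) (Nat.one_le_pow _ _ hp.pos) m'
  · nlinarith
  · nlinarith

end Cfsg.Agent.Lib.Helper24.LieOrdS
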