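import Mathlib
import Cfsg.Agent.Lib.Helper92.M11Stmt
import Cfsg.Agent.Lib.Helper3.Spectral
import Cfsg.Agent.Lib.Helper80.Deg2p

/-!
Piece M6 of S0434/S0435: for a character vanishing on the `3`-singular elements, an
involution `t` commuting with an element `y` of order `3` satisfies `χ 1 + χ t = 6 n`
(`n` is the multiplicity of the eigenvalue `1` of `t * y`).
-/

set_option autoImplicit false

namespace Cfsg.Agent.Lib.Helper24.M11M6

open Cfsg
open Cfsg.Agent.Lib.Helper3.Spectral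

universe u

theorem main : Cfsg.Agent.Lib.Helper92.M11Stmt.Mult6.{u} := by
  intro G _ _ χ hχ t y ht hy hty hvan
  classical
  obtain ⟨n, ρ, hρ⟩ := hχ
  have hchar : ∀ g, χ g = LinearMap.trace ℂ (Fin n → ℂ) (ρ g) := by
    intro g
    rw [← hρ]
    rfl
  have ht2 : t ^ 2 = 1 := by rw [← ht]; exact pow_orderOf_eq_one t
  have hy3 : y ^ 3 = 1 := by rw [← hy]; exact pow_orderOf_eq_one y
  obtain ⟨z, hz⟩ : ∃ z : G, z = t * y := ⟨_, rfl⟩
  have hzo : orderOf z = 6 := by
    rw [hz, hty.orderOf_mul_eq_mul_orderOf_of_coprime (by rw [hy, ht]; norm_num), hy, ht]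
  obtain ⟨b, μ, hb, hμ⟩ := exists_eigenbasis ρ z
  rw [hzo] at hμ
  have hpow : ∀ k : ℕ, χ (z ^ k) = ∑ i, μ i ^ k := by
    intro k
    rw [hchar, map_pow]
    exact trace_eq_sum_of_eigenbasis b _ _
      (fun i => Cfsg.Agent.Lib.Helper80.Deg2p.pow_apply_eigen _ _ _ (hb i) k)
  have hz3 : z ^ 3 = t := by
    rw [hz, hty.mul_pow, hy3, mul_one]
    calc t ^ 3 = t ^ 2 * t := by rw [← pow_succ]
      _ = t := by rw [ht2]; simp
  have hzk : ∀ k : ℕ, 0 < k → k < 6 → k ≠ 3 → χ (z ^ k) = 0 := by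
    intro k hk0 hk6 hk3
    apply hvan
    rw [orderOf_pow' z hk0.ne', hzo]
    interval_cases k <;> first | exact absurd rfl hk3 | decide
  have hp1 := Cfsg.Agent.Lib.Helper80.Deg2p.sum_pow_eq_card (r := 6) (by norm_num) μ hμ 1
    (by norm_num)
  simp only [← hpow] at hp1
  have e0 : χ (z ^ 0) = χ 1 := by rw [pow_zero]
  have e1 := hzk 1 (by norm_num) (by norm_num) (by norm_num)
  have e2 := hzk 2 (by norm_num) (by norm_num) (by norm_num)
  have e3 : χ (z ^ 3) = χ t := by rw [hz3]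
  have e4 := hzk 4 (by norm_num) (by norm_num) (by norm_num)
  have e5 := hzk 5 (by norm_num) (by norm_num) (by norm_num)
  simp only [Finset.sum_range_succ, Finset.sum_range_zero, e0, e1, e2, e3, e4, e5] at hp1
  refine ⟨(Finset.univ.filter fun i => μ i = 1).card, ?_⟩
  have h1 : ((1 : ℂ))⁻¹ = 1 := by norm_num
  rw [h1] at hp1
  push_cast at hp1
  linear_combination hp1

end Cfsg.Agent.Lib.Helper24.M11M6
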