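import Mathlib
import Cfsg.Agent.Lib.Helper92.M11Stmt
import Cfsg.Agent.Lib.CT.IndChar
import Cfsg.Agent.Lib.CT.NormOne
import Cfsg.Agent.Lib.Helper17.ExcCor

/-!
Piece PERM of S0434/S0435: the permutation character on the cosets of a subgroup `H` of a
simple group of order `7920`, decomposed along the nine non-trivial irreducible characters.
-/

set_option autoImplicit false

namespace Cfsg.Agent.Lib.Helper24.M11PERM

open Cfsg Cfsg.Agent.Lib.CT Cfsg.Agent.Lib.CT.Wedderburn
open Cfsg.Agent.Lib.Helper17.ExcMain Cfsg.Agent.Lib.Helper17.ExcCor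
open scoped ComplexConjugate

universe u

theorem main : Cfsg.Agent.Lib.Helper92.M11Stmt.PermDecomp.{u} := by
  intro G _ _ _ hG D H t
  classical
  haveI : Fintype G := Fintype.ofFinite G
  haveI : Fintype (G ⧸ H) := Fintype.ofFinite _
  haveI : Fintype H := Fintype.ofFinite _
  obtain ⟨π, hπ⟩ : ∃ π : G → ℂ, π = indFun H (fun _ => (1 : ℂ)) := ⟨_, rfl⟩
  have hπc : IsCharacter G π := by
    rw [hπ]
    exact IndChar.isCharacter_indFun H _ Ops.isCharacter_one
  obtain ⟨m, hm, hexp⟩ := NormOne.exists_mult hπc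
  have hm1 : m (trivIrr G) = 1 := by
    have h1 := hm (trivIrr G)
    rw [hπ, FrobRec.frobenius_reciprocity H _ _
      (char_isClassFunction (isCharacter_of_irr (trivIrr G).2))] at h1
    have h2 : classInner (fun _ : H => (1 : ℂ)) (fun h : H => (trivIrr G : G → ℂ) h) = 1 := by
      unfold classInner
      simp only [trivIrr_apply, map_one, mul_one, Finset.sum_const, Finset.card_univ,
        nsmul_eq_mul]
      rw [Nat.card_eq_fintype_card]
      apply inv_mul_cancel₀
      exact_mod_cast Fintype.card_ne_zero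
    rw [h2] at h1
    exact_mod_cast h1.symm
  have hπ1 : π 1 = (H.index : ℂ) := by
    rw [hπ, FrobRec.indFun_one]
    simp
  have hπt : ∃ k : ℕ, π t = (k : ℂ) := by
    rw [hπ, IndChar.indFun_eq_sum_rep H _ (fun _ _ => rfl) t]
    refine ⟨(Finset.univ.filter fun q : G ⧸ H =>
      (IndChar.rep H q)⁻¹ * t * IndChar.rep H q ∈ H).card, ?_⟩
    rw [Finset.card_filter]
    push_cast
    apply Finset.sum_congr rfl
    intro q _
    by_cases hq : (IndChar.rep H q)⁻¹ * t * IndChar.rep H q ∈ H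
    · rw [FrobRec.extendByZero_apply_of_mem H _ hq, if_pos hq]
    · rw [FrobRec.extendByZero_apply_of_not_mem H _ hq, if_neg hq]
  obtain ⟨k, hk⟩ := hπt
  refine ⟨m (D.a 0), m (D.a 1), m (D.a 2), m D.b, m (D.th 0), m (D.th 1), m D.d, m D.e, m D.f,
    k, ?_, ?_⟩
  · rw [← hπ1, hexp 1, D.sum_eq (fun ψ => (m ψ : ℂ) * (ψ : G → ℂ) 1), hm1, trivIrr_apply,
      deg_eq (D.a 0), deg_eq (D.a 1), deg_eq (D.a 2), deg_eq D.b, deg_eq (D.th 0),
      deg_eq (D.th 1), deg_eq D.d, deg_eq D.e, deg_eq D.f, D.ha, D.ha, D.ha, D.hb, D.hth, D.hth,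
      D.hd, D.he, D.hf]
    push_cast
    ring
  · rw [← hk, hexp t, D.sum_eq (fun ψ => (m ψ : ℂ) * (ψ : G → ℂ) t), hm1, trivIrr_apply]
    push_cast
    ring

end Cfsg.Agent.Lib.Helper24.M11PERM
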