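import Mathlib
import Cfsg.Agent.Lib.Helper35.M24BlkStmt

/-!
# S5006 piece EXP3: the Sylow 3-subgroups of `M24` have exponent 3.
-/

set_option autoImplicit false

namespace Cfsg.Agent.Lib.Helper24.M24BlkEXP3

open Cfsg Cfsg.Agent.Lib.Helper35.M24BlkStmt

/-- A `p`-element of a finite group `M` is conjugate into any subgroup `U` of index prime
to `p`. -/
theorem exists_conj_mem_of_pow {G : Type*} [Group G] (M U : Subgroup G) [Finite M] (hU : U ≤ M)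
    (p : ℕ) [Fact p.Prime] (m : ℕ) (hcard : Nat.card M = Nat.card U * m) (hm : ¬ p ∣ m)
    (x : G) (hx : x ∈ M) (k : ℕ) (hxp : x ^ p ^ k = 1) : ∃ u ∈ M, u⁻¹ * x * u ∈ U := by
  have hfin : Finite U :=
    Finite.of_injective (Subgroup.inclusion hU) (Subgroup.inclusion_injective hU)
  have hidx : (U.subgroupOf M).index = m := by
    have h1 : Nat.card (U.subgroupOf M) * (U.subgroupOf M).index = Nat.card M :=
      Subgroup.card_mul_index _
    have h2 : Nat.card (U.subgroupOf M) = Nat.card U :=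
      Nat.card_congr (Subgroup.subgroupOfEquivOfLe hU).toEquiv
    rw [h2, hcard] at h1
    exact Nat.eq_of_mul_eq_mul_left Nat.card_pos h1
  have hZ : IsPGroup p (Subgroup.zpowers (⟨x, hx⟩ : M)) := by
    intro g
    refine ⟨k, ?_⟩
    obtain ⟨i, hi⟩ := Subgroup.mem_zpowers_iff.mp g.2
    apply Subtype.ext
    apply Subtype.ext
    show ((g : M) : G) ^ p ^ k = 1
    rw [← hi]
    show (x ^ i) ^ p ^ k = 1
    rw [← zpow_natCast, ← zpow_mul, mul_comm, zpow_mul, zpow_natCast, hxp, one_zpow]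
  have hmod := hZ.card_modEq_card_fixedPoints (M ⧸ U.subgroupOf M)
  have hne : Nat.card (MulAction.fixedPoints (Subgroup.zpowers (⟨x, hx⟩ : M))
      (M ⧸ U.subgroupOf M)) ≠ 0 := by
    intro h0
    rw [h0, ← Subgroup.index_eq_card, hidx] at hmod
    exact hm (Nat.modEq_zero_iff_dvd.mp hmod)
  obtain ⟨⟨q, hq⟩⟩ := (Nat.card_pos_iff.mp (Nat.pos_of_ne_zero hne)).1
  obtain ⟨u, rfl⟩ := QuotientGroup.mk_surjective q
  have h1 := hq ⟨⟨x, hx⟩, Subgroup.mem_zpowers _⟩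
  have h2 : ((⟨x, hx⟩ * u : M) : M ⧸ U.subgroupOf M) = (u : M ⧸ U.subgroupOf M) := h1
  rw [QuotientGroup.eq] at h2
  have h3 : ((⟨x, hx⟩ * u)⁻¹ * u : M) ∈ U.subgroupOf M := h2
  have h4 := Subgroup.inv_mem _ h3
  rw [Subgroup.mem_subgroupOf] at h4
  refine ⟨u.1, u.2, ?_⟩
  have e : (((⟨x, hx⟩ * u)⁻¹ * u : M)⁻¹ : M).1 = u.1⁻¹ * x * u.1 := by
    show ((x * u.1)⁻¹ * u.1)⁻¹ = u.1⁻¹ * x * u.1
    group
  rw [← e]
  exact h4

theorem main : Exp3 := by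
  intro P hP hcard hexp g hg hg27
  haveI : Fact (Nat.Prime 3) := ⟨by norm_num⟩
  obtain ⟨u, hu, hmem⟩ := exists_conj_mem_of_pow M24 P hP 3 9067520
    (by rw [hcard, Cfsg.Agent.Lib.Helper7.M24Main.card_M24]) (by norm_num) g hg 3
    (by norm_num; exact hg27)
  have h3 := hexp _ hmem
  have e : u⁻¹ * g * u = u⁻¹ * g * u⁻¹⁻¹ := by rw [inv_inv]
  rw [e, conj_pow] at h3
  calc g ^ 3 = u⁻¹⁻¹ * (u⁻¹ * g ^ 3 * u⁻¹⁻¹) * u⁻¹ := by group
    _ = 1 := by rw [h3]; group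

end Cfsg.Agent.Lib.Helper24.M24BlkEXP3
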