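import Mathlib
import Cfsg.Agent.Lib.Helper35.M24BlkStmt
import Cfsg.Agent.Lib.Helper35.M23Gen

/-!
# S5006 piece SYL: elements of prime order `p` with `p² ∤ |M24|` are conjugate to powers of
each other.
-/

set_option autoImplicit false

namespace Cfsg.Agent.Lib.Helper24.M24BlkSYL

open Cfsg Cfsg.Agent.Lib.Helper35.M24BlkStmt

theorem main : Syl := by
  intro p hp hp2 r g hr hg hor hog
  haveI : Fact p.Prime := ⟨hp⟩
  have hcardZ : Nat.card (Subgroup.zpowers r) = p := by rw [Nat.card_zpowers, hor]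
  have hpd : p ∣ 244823040 := by
    rw [← Cfsg.Agent.Lib.Helper7.M24Main.card_M24, ← hor]
    have h1 := orderOf_dvd_natCard (⟨r, hr⟩ : M24)
    rwa [Subgroup.orderOf_mk] at h1
  obtain ⟨m, hm⟩ := hpd
  have hpm : ¬ p ∣ m := by
    rintro ⟨m', rfl⟩
    exact hp2 ⟨m', by rw [hm]; ring⟩
  obtain ⟨u, hu, hmem⟩ := Cfsg.Agent.Lib.Helper35.M23Gen.exists_conj_mem M24
    (Subgroup.zpowers r) (by rw [Subgroup.zpowers_le]; exact hr) p m
    (by rw [hcardZ, Cfsg.Agent.Lib.Helper7.M24Main.card_M24, hm]) hpm g hg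
    (by rw [← hog]; exact pow_orderOf_eq_one g)
  rw [← mem_powers_iff_mem_zpowers] at hmem
  obtain ⟨k, hk⟩ := hmem
  exact ⟨u⁻¹, inv_mem hu, k, by rw [inv_inv]; exact hk.symm⟩

end Cfsg.Agent.Lib.Helper24.M24BlkSYL
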