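import Mathlib
import Cfsg.Prelude.Def_Classical
import Cfsg.Prelude.Def_GeometricClasses
import Cfsg.Agent.Lib.Helper92.OPNEGSQNON5
import Cfsg.Agent.Lib.Helper44.QCount
import Cfsg.Agent.Lib.Helper45.OrthCard

/-!
# Elements with `x * x = -1` in the commutator subgroup of an isometry group: sign obstruction

Generic form of the permutation-sign argument of `Helper92.OPNEGSQNON5`: for ANY function
`Q : (ι → F) → F` with `Q 0 ≠ 1`, if the number of vectors with `Q v = 1` is `≡ 4 (mod 8)` then no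
element `x` of `Cfsg.Geo.omegaGL Q` has `x * x = -1`.

Application to the minus-type form `Cfsg.quadFormMinus k F a b` (dimension `2 k + 2`, anisotropic
binary part): the number of vectors of norm `1` is `q ^ k * (q ^ (k + 1) + 1)`, which is
`≡ 4 (mod 8)` for `k` even and `q ≡ 3 (mod 8)`.
-/

set_option autoImplicit false

universe u

open scoped Matrix

namespace Cfsg.Agent.Lib.Helper24.MinusSign

section generic

variable {ι : Type} [Fintype ι] [DecidableEq ι] {F : Type u} [Field F]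

/-- the vectors of norm `1` -/
abbrev XQ (Q : (ι → F) → F) : Type u := {v : ι → F // Q v = 1}

theorem iso_apply {Q : (ι → F) → F} {g : Matrix.GeneralLinearGroup ι F}
    (hg : g ∈ Cfsg.isometryGroup F Q) (v : ι → F) :
    Q ((g : Matrix ι ι F) *ᵥ v) = Q v :=
  hg v v

/-- the action of an isometry on the vectors of norm `1` -/
def act (Q : (ι → F) → F) (g : Cfsg.isometryGroup F Q) : Equiv.Perm (XQ Q) where
  toFun v := ⟨(g.1 : Matrix ι ι F) *ᵥ v.1, by rw [iso_apply g.2]; exact v.2⟩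
  invFun v := ⟨((g⁻¹).1 : Matrix ι ι F) *ᵥ v.1, by rw [iso_apply (g⁻¹).2]; exact v.2⟩
  left_inv v := by
    apply Subtype.ext
    show ((g⁻¹).1 : Matrix ι ι F) *ᵥ ((g.1 : Matrix ι ι F) *ᵥ v.1) = v.1
    rw [Matrix.mulVec_mulVec, ← Units.val_mul, ← Subgroup.coe_mul, inv_mul_cancel]
    simp
  right_inv v := by
    apply Subtype.ext
    show (g.1 : Matrix ι ι F) *ᵥ (((g⁻¹).1 : Matrix ι ι F) *ᵥ v.1) = v.1
    rw [Matrix.mulVec_mulVec, ← Units.val_mul, ← Subgroup.coe_mul, mul_inv_cancel]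
    simp

theorem act_apply (Q : (ι → F) → F) (g : Cfsg.isometryGroup F Q) (v : XQ Q) :
    ((act Q g v : XQ Q) : ι → F) = (g.1 : Matrix ι ι F) *ᵥ v.1 := rfl

/-- the action as a homomorphism -/
def actHom (Q : (ι → F) → F) : Cfsg.isometryGroup F Q →* Equiv.Perm (XQ Q) where
  toFun := act Q
  map_one' := by
    ext v
    rw [act_apply]
    simp
  map_mul' g h := by
    ext v
    rw [Equiv.Perm.mul_apply, act_apply, act_apply, act_apply, Matrix.mulVec_mulVec,
      Subgroup.coe_mul, Units.val_mul]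

/-- **Sign obstruction.**  If `Q 0 ≠ 1` and the number of vectors of norm `1` is `≡ 4 (mod 8)`,
no element of the commutator subgroup of the isometry group of `Q` squares to `-1`. -/
theorem no_negsq [Fintype F] (h2F : (2 : F) ≠ 0) (Q : (ι → F) → F) (hQ0 : Q 0 ≠ 1)
    (hcard : Nat.card {v : ι → F // Q v = 1} % 8 = 4)
    (x : Matrix.GeneralLinearGroup ι F) (hx : x ∈ Cfsg.Geo.omegaGL Q) :
    (x : Matrix ι ι F) * (x : Matrix ι ι F) ≠ -1 := by
  intro hxx
  classical
  obtain ⟨y, hy, hyx⟩ := Subgroup.mem_map.mp hx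
  haveI : Fintype (XQ Q) := Fintype.ofFinite _
  have hs1 : Equiv.Perm.sign (actHom Q y) = 1 := by
    have h := Abelianization.commutator_subset_ker (Equiv.Perm.sign.comp (actHom (F := F) Q)) hy
    exact h
  have hyx' : ((y.1 : Matrix.GeneralLinearGroup ι F) : Matrix ι ι F) = (x : Matrix ι ι F) := by
    rw [← hyx]; rfl
  have hsq : ∀ v : XQ Q, ((actHom Q y (actHom Q y v) : XQ Q) : ι → F) = -v.1 := by
    intro v
    show ((act Q y (act Q y v) : XQ Q) : ι → F) = -v.1
    rw [act_apply, act_apply, Matrix.mulVec_mulVec, hyx', hxx, Matrix.neg_mulVec,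
      Matrix.one_mulVec]
  have hne : ∀ v : XQ Q, actHom Q y (actHom Q y v) ≠ v := by
    intro v hv
    have h1 := hsq v
    rw [hv] at h1
    have h0 : v.1 = 0 := by
      funext i
      have := congrFun h1 i
      simp only [Pi.neg_apply] at this
      have h2 : (2 : F) * v.1 i = 0 := by linear_combination this
      rcases mul_eq_zero.mp h2 with h | h
      · exact absurd h h2F
      · exact h
    have hv1 := v.2
    rw [h0] at hv1
    exact hQ0 hv1
  have h4 : (actHom Q y) ^ 4 = 1 := by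
    ext v
    have e1 : ((actHom Q y) ^ 4) v = actHom Q y (actHom Q y (actHom Q y (actHom Q y v))) := by
      simp [pow_succ]
    rw [e1, hsq, hsq]
    simp
  have hcard' : Fintype.card (XQ Q) % 8 = 4 := by
    rw [← Nat.card_eq_fintype_card]
    exact hcard
  have hs2 := Cfsg.Agent.Lib.Helper92.OPNEGSQNON5.sign_eq_neg_one (actHom Q y) h4 hne hcard'
  rw [hs1] at hs2
  exact absurd hs2 (by decide)

end generic

section minus

variable {F : Type u} [Field F] [Fintype F]

/-- the number of vectors of norm `1` of the minus-type form, times `q` -/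
theorem card_minus_mul (k : ℕ) (a b : F)
    (hab : ∀ z₁ z₂ : F, z₁ ^ 2 + a * z₁ * z₂ + b * z₂ ^ 2 = 0 → z₁ = 0 ∧ z₂ = 0) :
    Nat.card {v : (Fin k ⊕ Fin k) ⊕ Fin 2 → F // Cfsg.quadFormMinus k F a b v = 1} *
        Fintype.card F
      = (Fintype.card F + 1) * Fintype.card F ^ (k + 1)
        + Fintype.card F ^ 2 * ((Fintype.card F ^ k - 1) * Fintype.card F ^ k) := by
  classical
  have h := Cfsg.Agent.Lib.Helper44.QCount.card_hypForm_mul (F := F) (κ := Fin k) (τ := Fin 2)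
    (fun w => w 0 ^ 2 + a * w 0 * w 1 + b * w 1 ^ 2) (1 : F)
  rw [Cfsg.Agent.Lib.Helper45.OrthCard.card_norm_one a b hab, Fintype.card_fin,
    Fintype.card_fin] at h
  exact h

theorem sq_mod8 (q : ℕ) (hq : q % 2 = 1) : q ^ 2 % 8 = 1 := by
  have h : q % 8 = 1 ∨ q % 8 = 3 ∨ q % 8 = 5 ∨ q % 8 = 7 := by omega
  rw [pow_two, Nat.mul_mod]
  rcases h with h | h | h | h <;> rw [h]

theorem pow_even_mod8 (q k : ℕ) (hq : q % 2 = 1) (hk : Even k) : q ^ k % 8 = 1 := by
  obtain ⟨j, rfl⟩ := hk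
  rw [← two_mul, pow_mul, Nat.pow_mod, sq_mod8 q hq]
  simp

/-- `k` even, `q ≡ 3 (mod 8)`: the number of vectors of norm `1` of the minus-type form of
dimension `2 k + 2` is `≡ 4 (mod 8)`. -/
theorem card_minus_mod (k : ℕ) (hk : Even k) (hq : Fintype.card F % 8 = 3) (a b : F)
    (hab : ∀ z₁ z₂ : F, z₁ ^ 2 + a * z₁ * z₂ + b * z₂ ^ 2 = 0 → z₁ = 0 ∧ z₂ = 0) :
    Nat.card {v : (Fin k ⊕ Fin k) ⊕ Fin 2 → F // Cfsg.quadFormMinus k F a b v = 1} % 8 = 4 := by
  have h := card_minus_mul k a b hab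
  have hq2 : Fintype.card F % 2 = 1 := by omega
  have hk1 : Fintype.card F ^ k % 8 = 1 := pow_even_mod8 _ k hq2 hk
  have hpos : 1 ≤ Fintype.card F ^ k := Nat.one_le_pow _ _ (by omega)
  have h8 : (Fintype.card F ^ k - 1) % 8 = 0 := by omega
  have hk2 : Fintype.card F ^ (k + 1) % 8 = 3 := by
    rw [pow_succ, Nat.mul_mod, hk1, hq]
  have hR : ((Fintype.card F + 1) * Fintype.card F ^ (k + 1)
      + Fintype.card F ^ 2 * ((Fintype.card F ^ k - 1) * Fintype.card F ^ k)) % 8 = 4 := by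
    have e1 : ((Fintype.card F + 1) * Fintype.card F ^ (k + 1)) % 8 = 4 := by
      rw [Nat.mul_mod, hk2]
      have : (Fintype.card F + 1) % 8 = 4 := by omega
      rw [this]
    have e2 : (Fintype.card F ^ 2 * ((Fintype.card F ^ k - 1) * Fintype.card F ^ k)) % 8 = 0 := by
      rw [Nat.mul_mod, Nat.mul_mod (Fintype.card F ^ k - 1), h8]
      simp
    rw [Nat.add_mod, e1, e2]
  rw [← h] at hR
  rw [Nat.mul_mod, hq] at hR
  omega

/-- **Minus type, `k` even (`d = k + 1` odd), `q ≡ 3 (mod 8)`**: no element of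
`Omega^-_(2k+2)(q)` has `x * x = -1`. -/
theorem minus_no_negsq (k : ℕ) (hk : Even k) (hq : Fintype.card F % 8 = 3) (a b : F)
    (hab : ∀ z₁ z₂ : F, z₁ ^ 2 + a * z₁ * z₂ + b * z₂ ^ 2 = 0 → z₁ = 0 ∧ z₂ = 0)
    (x : Matrix.GeneralLinearGroup ((Fin k ⊕ Fin k) ⊕ Fin 2) F)
    (hx : x ∈ Cfsg.Geo.omegaGL (Cfsg.quadFormMinus k F a b)) :
    (x : Matrix ((Fin k ⊕ Fin k) ⊕ Fin 2) ((Fin k ⊕ Fin k) ⊕ Fin 2) F) *
      (x : Matrix ((Fin k ⊕ Fin k) ⊕ Fin 2) ((Fin k ⊕ Fin k) ⊕ Fin 2) F) ≠ -1 := by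
  have h2F : (2 : F) ≠ 0 := by
    apply Ring.two_ne_zero
    intro hch
    have := FiniteField.even_card_iff_char_two.mp hch
    omega
  refine no_negsq h2F (Cfsg.quadFormMinus k F a b) ?_ (card_minus_mod k hk hq a b hab) x hx
  unfold Cfsg.quadFormMinus
  simp

end minus

end Cfsg.Agent.Lib.Helper24.MinusSign
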