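import Mathlib
import Cfsg.Agent.Lib.Helper24.MinusSign
import Cfsg.Agent.S0791

/-!
# Minus type, `q` odd: an element of `Omega^-_(2d)(q)` with `x * x = -1` forces `d` odd and
`q ≡ 7 (mod 8)`.

`x * x = -1 ∈ Omega^-` gives `q ^ d ≡ 3 (mod 4)` (S0791), i.e. `d` odd and `q ≡ 3 (mod 4)`; the
case `q ≡ 3 (mod 8)` is excluded by the sign obstruction `MinusSign.minus_no_negsq`.
-/

set_option autoImplicit false

universe u

open scoped Matrix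

namespace Cfsg.Agent.Lib.Helper24.MinusNegSq

theorem pow_mod4_one (q d : ℕ) (hq : q % 4 = 1) : q ^ d % 4 = 1 := by
  rw [Nat.pow_mod, hq]
  simp

theorem pow_mod4_even (q d : ℕ) (hq : q % 2 = 1) (hd : Even d) : q ^ d % 4 = 1 := by
  obtain ⟨j, rfl⟩ := hd
  have h : q ^ 2 % 4 = 1 := by
    have h' : q % 4 = 1 ∨ q % 4 = 3 := by omega
    rw [pow_two, Nat.mul_mod]
    rcases h' with h' | h' <;> rw [h']
  rw [← two_mul, pow_mul, Nat.pow_mod, h]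
  simp

/-- `q` odd, `d ≥ 1`: an element `x` of `Omega^-_(2d)(q)` with `x * x = -1` exists only if `d` is
odd and `q ≡ 7 (mod 8)`. -/
theorem main {F : Type u} [Field F] [Fintype F] (hodd : Odd (Fintype.card F)) (d : ℕ)
    (hd : 1 ≤ d) (a b : F)
    (hab : ∀ z₁ z₂ : F, z₁ ^ 2 + a * z₁ * z₂ + b * z₂ ^ 2 = 0 → z₁ = 0 ∧ z₂ = 0)
    (x : Matrix.GeneralLinearGroup ((Fin (d - 1) ⊕ Fin (d - 1)) ⊕ Fin 2) F)
    (hx : x ∈ Cfsg.Geo.omegaGL (Cfsg.quadFormMinus (d - 1) F a b))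
    (hxx : (x : Matrix ((Fin (d - 1) ⊕ Fin (d - 1)) ⊕ Fin 2)
        ((Fin (d - 1) ⊕ Fin (d - 1)) ⊕ Fin 2) F) *
      (x : Matrix ((Fin (d - 1) ⊕ Fin (d - 1)) ⊕ Fin 2)
        ((Fin (d - 1) ⊕ Fin (d - 1)) ⊕ Fin 2) F) = -1) :
    Odd d ∧ Fintype.card F % 8 = 7 := by
  obtain ⟨y, hy, hyx⟩ := Subgroup.mem_map.mp hx
  have hyx' : ((y.1 : Matrix.GeneralLinearGroup ((Fin (d - 1) ⊕ Fin (d - 1)) ⊕ Fin 2) F) :
      Matrix ((Fin (d - 1) ⊕ Fin (d - 1)) ⊕ Fin 2) ((Fin (d - 1) ⊕ Fin (d - 1)) ⊕ Fin 2) F) =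
      (x : Matrix ((Fin (d - 1) ⊕ Fin (d - 1)) ⊕ Fin 2)
        ((Fin (d - 1) ⊕ Fin (d - 1)) ⊕ Fin 2) F) := by
    rw [← hyx]; rfl
  have h791 := (Cfsg.Agent.S0791.result (F := F) rfl hodd d hd a b hab).mp
    ⟨y * y, Subgroup.mul_mem _ hy hy, by
      rw [Subgroup.coe_mul, Units.val_mul, hyx', hxx]⟩
  have hq2 : Fintype.card F % 2 = 1 := Nat.odd_iff.mp hodd
  have hq4 : Fintype.card F % 4 = 3 := by
    by_contra hne
    have h1 : Fintype.card F % 4 = 1 := by omega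
    have := pow_mod4_one _ d h1
    omega
  have hdodd : Odd d := by
    by_contra hne
    have hev : Even d := Nat.not_odd_iff_even.mp hne
    have := pow_mod4_even _ d hq2 hev
    omega
  refine ⟨hdodd, ?_⟩
  by_contra hne
  have hq8 : Fintype.card F % 8 = 3 := by omega
  have hk : Even (d - 1) := by
    obtain ⟨j, hj⟩ := hdodd
    exact ⟨j, by omega⟩
  exact Cfsg.Agent.Lib.Helper24.MinusSign.minus_no_negsq (d - 1) hk hq8 a b hab x hx hxx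

end Cfsg.Agent.Lib.Helper24.MinusNegSq
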