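import Mathlib
import Cfsg.Agent.Lib.Helper41.OMStmt

/-!
# S5978 piece EMBOG: the embedding `O(G) → O(S) ∩ C(φ L)` (adaptation of `Helper52.OFEMBO` to
any index type and Gram matrix)
-/

set_option autoImplicit false

namespace Cfsg.Agent.Lib.Helper24.OMEMBOG

open Matrix
open Cfsg.Agent.Lib.Helper37.OrtStmt (OGrp)
open Cfsg.Agent.Lib.Helper41.OMStmt

universe u

theorem mat_ext {R : Type u} [CommRing R] {ι : Type} [Fintype ι] [DecidableEq ι]
    {A B : Matrix ι ι R} (h : ∀ v, A *ᵥ v = B *ᵥ v) : A = B := by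
  apply Matrix.toLin'.injective
  apply LinearMap.ext
  intro v
  rw [Matrix.toLin'_apply, Matrix.toLin'_apply]
  exact h v

theorem mat_ext_of_dot {R : Type u} [CommRing R] {ι : Type} [Fintype ι] [DecidableEq ι]
    {A B : Matrix ι ι R} (h : ∀ u v, u ⬝ᵥ (A *ᵥ v) = u ⬝ᵥ (B *ᵥ v)) : A = B := by
  ext i j
  have h1 := h (Pi.single i 1) (Pi.single j 1)
  simpa using h1

theorem dot_conj {R : Type u} [CommRing R] {ι κ : Type} [Fintype ι] [Fintype κ]
    (h : Matrix κ ι R) (S : Matrix κ κ R) (u v : ι → R) :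
    u ⬝ᵥ ((hᵀ * S * h) *ᵥ v) = (h *ᵥ u) ⬝ᵥ (S *ᵥ (h *ᵥ v)) := by
  rw [← Matrix.mulVec_mulVec, ← Matrix.mulVec_mulVec, Matrix.dotProduct_mulVec,
    Matrix.vecMul_transpose]

section

variable {F : Type u} [Field F] {ι : Type} [Fintype ι] [DecidableEq ι] {L : Type u} [Field L]
  [Algebra F L] {m' : ℕ}

/-- the coordinate map -/
def Emap (φ : L →ₐ[F] Matrix ι ι F) (b : Fin m' → (ι → F)) :
    (Fin m' → L) →ₗ[F] (ι → F) where
  toFun c := CoordG φ b c
  map_add' c c' := by
    unfold CoordG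
    simp only [Pi.add_apply, map_add, Matrix.add_mulVec, Finset.sum_add_distrib]
  map_smul' a c := by
    unfold CoordG
    simp only [Pi.smul_apply, map_smul, RingHom.id_apply, Finset.smul_sum, Matrix.smul_mulVec]

/-- the matrix of `e ∘ M ∘ e⁻¹` -/
noncomputable def psiMat (e : (Fin m' → L) ≃ₗ[F] (ι → F))
    (M : Matrix (Fin m') (Fin m') L) : Matrix ι ι F :=
  LinearMap.toMatrix' (e.toLinearMap ∘ₗ ((Matrix.mulVecLin M).restrictScalars F) ∘ₗ
    e.symm.toLinearMap)

theorem psiMat_mulVec (e : (Fin m' → L) ≃ₗ[F] (ι → F))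
    (M : Matrix (Fin m') (Fin m') L) (v : ι → F) :
    psiMat e M *ᵥ v = e (M *ᵥ e.symm v) := by
  unfold psiMat
  rw [← Matrix.toLin'_apply, Matrix.toLin'_toMatrix']
  rfl

/-- the homomorphism -/
noncomputable def psi0 (e : (Fin m' → L) ≃ₗ[F] (ι → F)) :
    GL (Fin m') L →* Matrix ι ι F where
  toFun M := psiMat e (M : Matrix (Fin m') (Fin m') L)
  map_one' := by
    apply mat_ext
    intro v
    rw [psiMat_mulVec]
    simp
  map_mul' M N := by
    apply mat_ext
    intro v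
    rw [psiMat_mulVec, ← Matrix.mulVec_mulVec, psiMat_mulVec, psiMat_mulVec]
    simp [Matrix.mulVec_mulVec]

end

theorem main : EmbOG.{u} := by
  intro F _ ι _ _ S L _ _ φ τ m' b G hfr
  classical
  obtain ⟨hGt, hGdet, hbij, hform⟩ := hfr
  let e : (Fin m' → L) ≃ₗ[F] (ι → F) :=
    LinearEquiv.ofBijective (Emap φ b) hbij
  have he : ∀ c, e c = CoordG φ b c := fun c => rfl
  let Ψ : ↥(OGrp G) →* GL ι F :=
    (psi0 e).toHomUnits.comp (OGrp G).subtype
  have hΨ : ∀ (M : ↥(OGrp G)) (v : ι → F),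
      (Ψ M).val *ᵥ v =
        e (((M : GL (Fin m') L) : Matrix (Fin m') (Fin m') L) *ᵥ e.symm v) :=
    fun M v => psiMat_mulVec e _ v
  have hφ : ∀ (a : L) (c : Fin m' → L), φ a *ᵥ e c = e (a • c) := by
    intro a c
    rw [he, he]
    unfold CoordG
    rw [Matrix.mulVec_sum]
    apply Finset.sum_congr rfl
    intro j _
    rw [Matrix.mulVec_mulVec, ← map_mul]
    rfl
  refine ⟨Ψ, ?_, ?_⟩
  · intro M M' h
    apply Subtype.ext
    apply Units.ext
    apply mat_ext
    intro c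
    have h1 := hΨ M (e c)
    have h2 := hΨ M' (e c)
    rw [h, h2, e.symm_apply_apply] at h1
    exact (e.injective h1).symm
  · intro M
    constructor
    · apply mat_ext_of_dot
      intro u v
      rw [dot_conj]
      obtain ⟨c, rfl⟩ := e.surjective u
      obtain ⟨c', rfl⟩ := e.surjective v
      rw [hΨ, hΨ, e.symm_apply_apply, e.symm_apply_apply, he, he, he c, he c', hform, hform]
      congr 1
      rw [← dot_conj]
      have hM : ((M : GL (Fin m') L) : Matrix (Fin m') (Fin m') L)ᵀ * G *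
          ((M : GL (Fin m') L) : Matrix (Fin m') (Fin m') L) = G := M.2
      rw [hM]
    · intro a
      apply mat_ext
      intro v
      obtain ⟨c, rfl⟩ := e.surjective v
      rw [← Matrix.mulVec_mulVec, ← Matrix.mulVec_mulVec, hφ, hΨ, hΨ, e.symm_apply_apply,
        e.symm_apply_apply, hφ]
      congr 1
      exact Matrix.mulVec_smul _ _ _

end Cfsg.Agent.Lib.Helper24.OMEMBOG
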