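import Mathlib
import Cfsg.Agent.Lib.Helper45.OMiStmt
import Cfsg.Agent.Lib.Helper24.MinusNegSq

/-!
# S5991 / NEGSQNONAM: `d` even or `q ≡ 1 (mod 4)`: no element of `Omega^-` has `x * x = -1`.
-/

set_option autoImplicit false

universe u

open scoped Matrix

namespace Cfsg.Agent.Lib.Helper24.OMiNEGSQNONAM

open Cfsg.Agent.Lib.Helper45.OMiStmt

theorem main : NegSqNonAM.{u} := by
  intro F _ _ hodd d hd hcase a b hab x hx hxx
  obtain ⟨hdodd, hq⟩ := Cfsg.Agent.Lib.Helper24.MinusNegSq.main hodd d hd a b hab x hx hxx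
  rcases hcase with hev | h4
  · exact (Nat.not_even_iff_odd.mpr hdodd) hev
  · omega

end Cfsg.Agent.Lib.Helper24.OMiNEGSQNONAM
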