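import Mathlib
import Cfsg.Agent.Lib.Helper45.OMiStmt
import Cfsg.Agent.Lib.Helper24.MinusNegSq

/-!
# S5991 / NEGSQNONBM: `d` odd, `q ≡ 3 (mod 8)`: no element of `Omega^-` has `x * x = -1`.
-/

set_option autoImplicit false

universe u

open scoped Matrix

namespace Cfsg.Agent.Lib.Helper24.OMiNEGSQNONBM

open Cfsg.Agent.Lib.Helper45.OMiStmt

theorem main : NegSqNonBM.{u} := by
  intro F _ _ hq d hd _ a b hab x hx hxx
  have hodd : Odd (Fintype.card F) := Nat.odd_iff.mpr (by omega)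
  obtain ⟨-, hq7⟩ := Cfsg.Agent.Lib.Helper24.MinusNegSq.main hodd d hd a b hab x hx hxx
  omega

end Cfsg.Agent.Lib.Helper24.OMiNEGSQNONBM
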