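import Mathlib

/-!
# Counting pairs with equal squares

* `card_pairs_eq_sum` : `#{(x, y) | P x y} = ∑ x, #{y | P x y}`.
* `conjInvAction` : the action `(x, ε) • w = x * w ^ ε * x⁻¹` of `Q × ℤˣ` on `Q`.
* `card_dvd_sum_sq` : `|Q|` divides `∑ x, #{y | y ^ 2 = x ^ 2}` (the number of pairs with equal
  squares is `|Q|` times the number of real conjugacy classes); via Burnside's lemma.
* `three_dvd_card_of_fixed_point_free` : a fixed-point-free automorphism of `3`-power order
  acting on an invariant subset: `3` divides the size of the subset.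
-/

set_option autoImplicit false

namespace Cfsg.Agent.Lib.Helper24.RealCount

variable {Q : Type*} [Group Q]

theorem card_pairs_eq_sum [Fintype Q] (P : Q → Q → Prop) [∀ x, DecidablePred (P x)] :
    Nat.card {p : Q × Q // P p.1 p.2} = ∑ x : Q, (Finset.univ.filter (P x)).card := by
  classical
  rw [Nat.card_eq_fintype_card, Fintype.card_congr (Equiv.subtypeProdEquivSigmaSubtype P),
    Fintype.card_sigma]
  refine Finset.sum_congr rfl (fun x _ => ?_)
  rw [Fintype.card_subtype]

/-- The action of `Q × ℤˣ` on `Q` by `(x, ε) • w = x * w ^ ε * x⁻¹`. -/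
def conjInvAction : MulAction (Q × ℤˣ) Q where
  smul g w := g.1 * w ^ (g.2 : ℤ) * g.1⁻¹
  one_smul w := by
    show (1 : Q) * w ^ ((1 : ℤˣ) : ℤ) * (1 : Q)⁻¹ = w
    simp
  mul_smul g h w := by
    show (g.1 * h.1) * w ^ ((g.2 * h.2 : ℤˣ) : ℤ) * (g.1 * h.1)⁻¹ =
      g.1 * (h.1 * w ^ (h.2 : ℤ) * h.1⁻¹) ^ (g.2 : ℤ) * g.1⁻¹
    rw [conj_zpow, Units.val_mul, mul_comm (g.2 : ℤ), zpow_mul]
    simp [mul_assoc]

/-- `|Q|` divides the number of pairs `(x, y)` with `x ^ 2 = y ^ 2`. -/
theorem card_dvd_sum_sq [Fintype Q] [DecidableEq Q] :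
    Fintype.card Q ∣ ∑ x : Q, (Finset.univ.filter (fun y : Q => y ^ 2 = x ^ 2)).card := by
  classical
  letI : MulAction (Q × ℤˣ) Q := conjInvAction
  have hB := MulAction.sum_card_fixedBy_eq_card_orbits_mul_card_group (Q × ℤˣ) Q
  have h1 : ∀ g : Q × ℤˣ, Fintype.card (MulAction.fixedBy Q g) =
      (Finset.univ.filter (fun w : Q => g.1 * w ^ (g.2 : ℤ) * g.1⁻¹ = w)).card := by
    intro g
    refine Fintype.card_of_subtype _ (fun w => ?_)
    simp only [Finset.mem_filter, Finset.mem_univ, true_and, MulAction.mem_fixedBy]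
    exact Iff.rfl
  have hsum : ∑ g : Q × ℤˣ, Fintype.card (MulAction.fixedBy Q g) =
      ∑ x : Q, (Finset.univ.filter (fun w : Q => x * w * x⁻¹ = w)).card +
        ∑ x : Q, (Finset.univ.filter (fun w : Q => x * w⁻¹ * x⁻¹ = w)).card := by
    rw [Fintype.sum_prod_type, ← Finset.sum_add_distrib]
    refine Finset.sum_congr rfl (fun x _ => ?_)
    rw [UnitsInt.univ, Finset.sum_pair (by decide), h1, h1]
    simp
  have hcomm : ∑ x : Q, (Finset.univ.filter (fun w : Q => x * w * x⁻¹ = w)).card =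
      Nat.card (ConjClasses Q) * Fintype.card Q := by
    rw [← Nat.card_eq_fintype_card (α := Q), ← card_comm_eq_card_conjClasses_mul_card,
      card_pairs_eq_sum (fun x w => Commute x w)]
    refine Finset.sum_congr rfl (fun x _ => ?_)
    congr 1
    ext w
    simp only [Finset.mem_filter, Finset.mem_univ, true_and]
    rw [mul_inv_eq_iff_eq_mul]
    exact Iff.rfl
  have hinv : ∀ x : Q, (Finset.univ.filter (fun w : Q => x * w⁻¹ * x⁻¹ = w)).card =
      (Finset.univ.filter (fun y : Q => y ^ 2 = x ^ 2)).card := by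
    intro x
    refine Finset.card_bij (fun w _ => x * w) ?_ ?_ ?_
    · intro w hw
      simp only [Finset.mem_filter, Finset.mem_univ, true_and] at hw ⊢
      have h2 : w * x * w = x := by
        calc w * x * w = (x * w⁻¹ * x⁻¹) * x * w := by rw [hw]
          _ = x := by group
      rw [pow_two, pow_two]
      calc x * w * (x * w) = x * (w * x * w) := by group
        _ = x * x := by rw [h2]
    · intro a _ b _ h
      exact mul_left_cancel h
    · intro y hy
      simp only [Finset.mem_filter, Finset.mem_univ, true_and] at hy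
      refine ⟨x⁻¹ * y, ?_, by group⟩
      simp only [Finset.mem_filter, Finset.mem_univ, true_and]
      have h2 : x * x = y * y := by rw [← pow_two, ← pow_two, hy]
      have h3 : x * y⁻¹ = x⁻¹ * y := by
        calc x * y⁻¹ = x⁻¹ * (x * x) * y⁻¹ := by group
          _ = x⁻¹ * (y * y) * y⁻¹ := by rw [h2]
          _ = x⁻¹ * y := by group
      calc x * (x⁻¹ * y)⁻¹ * x⁻¹ = x * y⁻¹ := by group
        _ = x⁻¹ * y := h3
  rw [hsum, hcomm] at hB
  have h4 : ∑ x : Q, (Finset.univ.filter (fun y : Q => y ^ 2 = x ^ 2)).card =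
      ∑ x : Q, (Finset.univ.filter (fun w : Q => x * w⁻¹ * x⁻¹ = w)).card :=
    Finset.sum_congr rfl (fun x _ => (hinv x).symm)
  rw [h4]
  have hd1 : Fintype.card Q ∣
      Fintype.card (Quotient (MulAction.orbitRel (Q × ℤˣ) Q)) * Fintype.card (Q × ℤˣ) := by
    rw [Fintype.card_prod]
    exact dvd_mul_of_dvd_right (dvd_mul_right _ _) _
  rw [← hB] at hd1
  exact (Nat.dvd_add_right (dvd_mul_left _ _)).mp hd1

/-- A fixed-point-free automorphism of `3`-power order acting on an invariant subset: `3`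
divides the size of the subset. -/
theorem three_dvd_card_of_fixed_point_free [Finite Q] (τ : MulAut Q) (k : ℕ)
    (hτ : τ ^ 3 ^ k = 1) (p : Q → Prop) (hp : ∀ x, p (τ x) ↔ p x)
    (hfix : ∀ x, p x → τ x ≠ x) : 3 ∣ Nat.card {x // p x} := by
  classical
  haveI : Fintype Q := Fintype.ofFinite Q
  haveI : Fact (Nat.Prime 3) := ⟨Nat.prime_three⟩
  by_contra h
  rw [Nat.card_eq_fintype_card] at h
  obtain ⟨σ₀, hσ₀⟩ : ∃ σ₀ : Equiv.Perm Q, σ₀ = MulAut.toPerm Q τ := ⟨_, rfl⟩
  have happ : ∀ x, σ₀ x = τ x := fun x => by rw [hσ₀]; rfl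
  have hp' : ∀ x, p (σ₀ x) ↔ p x := fun x => by rw [happ]; exact hp x
  have hσ₀k : σ₀ ^ 3 ^ k = 1 := by rw [hσ₀, ← map_pow, hτ, map_one]
  have hσ : (σ₀.subtypePerm hp') ^ 3 ^ k = 1 := by
    rw [Equiv.Perm.subtypePerm_pow]
    ext x
    simp [hσ₀k]
  obtain ⟨a, ha⟩ := Equiv.Perm.exists_fixed_point_of_prime h hσ
  refine hfix a.1 a.2 ?_
  rw [← happ]
  exact congrArg Subtype.val ha

end Cfsg.Agent.Lib.Helper24.RealCount
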